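import Cfsg.Agent.Lib.Fusion.ConstrainedNormal
import Cfsg.Agent.Lib.Fusion.Realized

/-! Central quotients of constrained group systems. (helper6) -/

set_option autoImplicit false
set_option linter.unusedSectionVars false
set_option linter.style.haveILetI false

namespace CfsgLib.Fusion

open Cfsg Cfsg.FusionSystem

universe u

variable {L : Type u} [Group L] [Finite L] {p : ℕ} [Fact p.Prime]

/-- A `p`-element of `S Z`, with `Z` central, lies in the Sylow subgroup `S`. -/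
theorem mem_sylow_of_mul_central (S : Sylow p L) {s z : L} (hs : s ∈ (S : Subgroup L)) (hz : z ∈ Subgroup.center L)
    {k : ℕ} (h : (s * z) ^ p ^ k = 1) : s * z ∈ (S : Subgroup L) := by
  obtain ⟨m, hm⟩ := S.2 ⟨s, hs⟩
  have hm' : s ^ p ^ m = 1 := congrArg Subtype.val hm
  have hcomm : Commute s z := Subgroup.mem_center_iff.mp hz s
  have hzp : z ^ p ^ (k + m) = 1 := by
    have h1 : (s * z) ^ p ^ (k + m) = 1 := by rw [pow_add, pow_mul, h, one_pow]
    rw [hcomm.mul_pow, show s ^ p ^ (k + m) = 1 by rw [pow_add, mul_comm (p ^ k), pow_mul, hm', one_pow], one_mul] at h1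
    exact h1
  have hn : (Subgroup.zpowers z).Normal :=
    ⟨fun a ha g => by
      have hac : a ∈ Subgroup.center L := Subgroup.zpowers_le.mpr hz ha
      rw [Subgroup.mem_center_iff.mp hac g, mul_inv_cancel_right]
      exact ha⟩
  have hp : IsPGroup p ↥(Subgroup.zpowers z) := by
    rintro ⟨a, ha⟩
    obtain ⟨i, rfl⟩ := Subgroup.mem_zpowers_iff.mp ha
    exact ⟨k + m, Subtype.ext (by
      show (z ^ i) ^ p ^ (k + m) = 1
      rw [← zpow_natCast, ← zpow_mul, mul_comm, zpow_mul, zpow_natCast, hzp, one_zpow])⟩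
  exact mul_mem hs (CfsgLib.Core.pCore_le_sylow S (CfsgLib.Core.le_pCore hn hp (Subgroup.mem_zpowers z)))

/-- A central quotient of a constrained group system is constrained. -/
theorem constrained_quotient (S : Sylow p L) (Z : Subgroup L) [Z.Normal] (hZ : Z ≤ Subgroup.center L)
    (h : (groupFusionSystem (S : Subgroup L)).IsConstrained p) :
    (groupFusionSystem ((S : Subgroup L).map (QuotientGroup.mk' Z))).IsConstrained p := by
  set π := QuotientGroup.mk' Z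
  set F := groupFusionSystem (S : Subgroup L)
  set Sq := (S : Subgroup L).map π
  set Fq := groupFusionSystem Sq
  have hS : IsPGroup p ↥(S : Subgroup L) := S.2
  have hF : F.IsSaturated p := h.1
  have hSq : IsPGroup p ↥Sq := hS.map π
  have hFq : Fq.IsSaturated p := group_isSaturated (S.mapSurjective (QuotientGroup.mk'_surjective Z))
  obtain ⟨-, Q₀, hQ₀, hQ₀c⟩ := h
  set Q := F.core
  have hQ : F.IsNormal Q := isNormal_core F
  have hQsc := isNormal_stronglyClosed hQ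
  have hQS : Q ≤ (S : Subgroup L) := core_le F
  have hCQ : centralizerIn (S : Subgroup L) Q ≤ Q := fun x hx =>
    le_core hQ₀ (hQ₀c.2 Q₀ (IsConj.refl F hQ₀.1) ⟨hx.1, Subgroup.centralizer_le (le_core hQ₀) hx.2⟩)
  have hfix : ∀ {P : Subgroup L} {φ : ↥P →* L}, φ ∈ F.Hom P → ∀ x : P, (x : L) ∈ Z → φ x = x := by
    rintro P φ ⟨-, -, g, hg⟩ x hx
    rw [hg x, Subgroup.mem_center_iff.mp (hZ hx) g, mul_inv_cancel_right]
  set Qq := Q.map π
  have hQqS : Qq ≤ Sq := Subgroup.map_mono hQS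
  haveI := finite_of_le hQqS
  have hQn : Fq.IsNormal Qq := by
    refine isNormal_of_extend p hSq hFq hQqS fun P hP φ hφ => ?_
    obtain ⟨-, hφS, g₀, hg⟩ := hφ
    obtain ⟨g, rfl⟩ := QuotientGroup.mk'_surjective Z g₀
    set P₀ := Q ⊓ P.comap π
    have hgS : ∀ x : ↥P₀, g * (x : L) * g⁻¹ ∈ (S : Subgroup L) := by
      intro x
      obtain ⟨s, hs, hsx⟩ := hg ⟨π x, x.2.2⟩ ▸ hφS ⟨π x, x.2.2⟩
      obtain ⟨z, hz, hzx⟩ : ∃ z ∈ Z, s * z = g * (x : L) * g⁻¹ :=
        ⟨s⁻¹ * (g * (x : L) * g⁻¹), QuotientGroup.eq.mp (show π s = π (g * (x : L) * g⁻¹) from hsx.trans (by show π g * π (x : L) * (π g)⁻¹ = π (g * (x : L) * g⁻¹); rw [map_mul, map_mul, map_inv])), mul_inv_cancel_left _ _⟩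
      obtain ⟨k, hk⟩ := S.2 ⟨(x : L), hQS x.2.1⟩
      rw [← hzx]
      refine mem_sylow_of_mul_central S hs (hZ hz) (k := k) ?_
      rw [hzx, conj_pow, show (x : L) ^ p ^ k = 1 from congrArg Subtype.val hk, mul_one, mul_inv_cancel]
    obtain ⟨β, hβ, hβe⟩ := isNormal_restrict hQ (show conjHom P₀ g ∈ F.Hom P₀ from
      ⟨inf_le_left.trans hQS, hgS, g, fun x => rfl⟩)
    obtain ⟨-, -, w, hw⟩ := (autGroup_carrier F hQS β).mp hβ
    have hwQ : ∀ y : ↥Qq, π w * (y : L ⧸ Z) * (π w)⁻¹ ∈ Qq := by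
      rintro ⟨_, y, hy, rfl⟩
      exact ⟨(β ⟨y, hy⟩ : ↥Q), (β ⟨y, hy⟩).2, by rw [show ((β ⟨y, hy⟩ : ↥Q) : L) = w * y * w⁻¹ from hw ⟨y, hy⟩]; simp⟩
    have hmem : conjHom Qq (π w) ∈ Fq.Hom Qq := ⟨hQqS, fun y => hQqS (hwQ y), π w, fun _ => rfl⟩
    have hr : (conjHom Qq (π w)).range = Qq :=
      Subgroup.eq_of_le_of_card_ge (by rintro _ ⟨y, rfl⟩; exact hwQ y) (card_range hmem).ge
    refine ⟨isoOfMem hmem hr, (autGroup_carrier Fq hQqS _).mpr (by
      rw [show (isoOfMem hmem hr).toMonoidHom = _ from rfl, isoOfMem_hom hmem hr]; exact hmem), fun x => ?_⟩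
    refine (DFunLike.congr_fun (isoOfMem_hom hmem hr) _).trans ?_
    obtain ⟨y, hy, hyx⟩ := hP x.2
    have hyP : y ∈ P₀ := ⟨hy, show π y ∈ P from hyx.symm ▸ x.2⟩
    rw [hg x]
    show π w * (x : L ⧸ Z) * (π w)⁻¹ = π g * (x : L ⧸ Z) * (π g)⁻¹
    have := congrArg π ((hw ⟨y, hy⟩).symm.trans (hβe ⟨y, hyP⟩ hy))
    rw [← hyx]
    simpa [conjHom] using this
  -- the preimage of the centralizer
  set D := (S : Subgroup L) ⊓ (Subgroup.centralizer (Qq : Set (L ⧸ Z))).comap π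
  have hmemD : ∀ {s : L}, s ∈ D → ∀ q ∈ Q, (q : L)⁻¹ * (s * q * s⁻¹) ∈ Z := by
    intro s hs q hq
    have h1 := Subgroup.mem_centralizer_iff.mp hs.2 (π q) ⟨q, hq, rfl⟩
    apply (QuotientGroup.eq_one_iff _).mp
    show π (q⁻¹ * (s * q * s⁻¹)) = 1
    rw [map_mul, map_mul, map_mul, map_inv, map_inv, ← h1]
    group
  have hDsc : F.StronglyClosed D := by
    refine ⟨inf_le_left, fun U hU φ hφ x => ⟨apply_mem_S hφ x, ?_⟩⟩
    obtain ⟨ψ, hψ, e1, f1⟩ := hQ.2 U φ hφ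
    obtain ⟨-, -, w, hw⟩ := hψ
    refine Subgroup.mem_centralizer_iff.mpr ?_
    rintro _ ⟨q, hq, rfl⟩
    obtain ⟨q', hq'⟩ := ((map_eq_iff le_sup_right ψ).mp f1).2 q hq
    have h1 := Subgroup.mem_centralizer_iff.mp (hU x.2).2 (π q') ⟨q', q'.2, rfl⟩
    rw [hw] at hq'
    rw [← e1 x, hw, ← hq']
    show π (w * q' * w⁻¹) * π (w * x * w⁻¹) = π (w * x * w⁻¹) * π (w * q' * w⁻¹)
    rw [← map_mul, ← map_mul, show w * (q' : L) * w⁻¹ * (w * x * w⁻¹) = w * (q' * x) * w⁻¹ by group,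
      show w * (x : L) * w⁻¹ * (w * q' * w⁻¹) = w * (x * q') * w⁻¹ by group, map_mul π _ w⁻¹, map_mul π w,
      map_mul π _ w⁻¹, map_mul π w, map_mul π (q' : L), map_mul π (x : L), h1]
  have hDn : F.IsNormal D := by
    refine isNormal_of_le_radical p hS hF hDsc fun P _ hc hr => ?_
    have hPS := hc.1
    have hQP : Q ≤ P := normal_le_radical p hS hQ hc hr
    haveI := finite_of_le hPS
    have hfixA : ∀ a : ↥(F.autGroup P), ∀ x : ↥P, (x : L) ∈ Z → (a : MulAut ↥P) x = x := fun a x hx =>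
      Subtype.ext (hfix ((autGroup_carrier F hPS _).mp a.2) x hx)
    let K : Subgroup ↥(F.autGroup P) :=
      { carrier := {a | ∀ q : P, (q : L) ∈ Q → ((q⁻¹ * (a : MulAut ↥P) q : ↥P) : L) ∈ Z}
        one_mem' := fun q _ => by simp
        mul_mem' := fun {a b} ha hb q hq => by
          show ((q⁻¹ * (a : MulAut ↥P) ((b : MulAut ↥P) q) : ↥P) : L) ∈ Z
          have h1 := hb q hq
          rw [show (b : MulAut ↥P) q = q * (q⁻¹ * (b : MulAut ↥P) q) by group, map_mul, hfixA a _ h1, ← mul_assoc]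
          exact Z.mul_mem (ha q hq) h1
        inv_mem' := fun {a} ha q hq => by
          show ((q⁻¹ * (a : MulAut ↥P)⁻¹ q : ↥P) : L) ∈ Z
          set r := (a : MulAut ↥P)⁻¹ q
          have hrQ : (r : L) ∈ Q := apply_mem_closed hQsc ((autGroup_carrier F hPS _).mp (inv_mem a.2)) q hq
          have h1 := ha r hrQ
          rw [show (a : MulAut ↥P) r = q from MulAut.apply_inv_self _ _ _] at h1
          rw [show q⁻¹ * r = (r⁻¹ * q)⁻¹ by group]
          exact Z.inv_mem h1 }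
    haveI : K.Normal := ⟨fun a ha g q hq => by
      show ((q⁻¹ * (g : MulAut ↥P) ((a : MulAut ↥P) ((g : MulAut ↥P)⁻¹ q)) : ↥P) : L) ∈ Z
      set r := (g : MulAut ↥P)⁻¹ q
      have hrQ : (r : L) ∈ Q := apply_mem_closed hQsc ((autGroup_carrier F hPS _).mp (inv_mem g.2)) q hq
      have h1 := ha r hrQ
      rw [show q = (g : MulAut ↥P) r from (MulAut.apply_inv_self _ _ _).symm, ← map_inv, ← map_mul, hfixA g _ h1]
      exact h1⟩
    have hKp : IsPGroup p ↥K := by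
      rintro ⟨⟨a, ha⟩, haK⟩
      obtain ⟨k, hk⟩ := IsPGroup.iff_card.mp (hS.to_le hPS)
      have hpow : ∀ d : ↥P, d ^ p ^ k = 1 := fun d => by rw [← hk]; exact pow_card_eq_one'
      have hγQ : ∀ q : ↥P, (q : L) ∈ Q → (a ^ p ^ k) q = q := fun q hq => by
        rw [iter_fix a (d := q⁻¹ * a q) (by group) (hfixA ⟨a, ha⟩ _ (haK q hq)), hpow, mul_one]
      refine ⟨k + k, Subtype.ext (Subtype.ext (MulEquiv.ext fun x => ?_))⟩
      show (a ^ p ^ (k + k)) x = x
      rw [pow_add, pow_mul]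
      set γ := a ^ p ^ k
      set d := x⁻¹ * γ x
      have hdQ : (d : L) ∈ Q := by
        refine hCQ ⟨hPS d.2, Subgroup.mem_centralizer_iff.mpr fun q hq => ?_⟩
        set q' : ↥P := ⟨q, hQP hq⟩
        have hc1 : ((x * q' * x⁻¹ : ↥P) : L) ∈ Q := conj_mem_of_normalizer (StronglyClosed.normal hQsc (hPS x.2)) hq
        have h5 := hγQ _ hc1
        rw [map_mul, map_mul, map_inv, hγQ q' hq] at h5
        have h6 : q' * d = d * q' := by
          calc q' * (x⁻¹ * γ x) = x⁻¹ * (x * q' * x⁻¹) * γ x := by group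
            _ = x⁻¹ * (γ x * q' * (γ x)⁻¹) * γ x := by rw [h5]
            _ = (x⁻¹ * γ x) * q' := by group
        exact congrArg Subtype.val h6
      rw [iter_fix γ (d := d) (by simp [d]) (hγQ d hdQ), hpow, mul_one]
    refine le_of_normal_pGroup hS inf_le_left (StronglyClosed.normal hDsc) hc hr K hKp fun r hr' b hb q hq => ?_
    show ((q : L))⁻¹ * (((b : MulAut ↥P) q : ↥P) : L) ∈ Z
    rw [hb q]
    exact hmemD hr' q hq
  refine ⟨hFq, Qq, hQn, hQqS, fun R hR => ?_⟩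
  obtain ⟨φ, hφ, rfl⟩ := hR
  have hr : φ.range = Qq :=
    Subgroup.eq_of_le_of_card_ge (by rintro _ ⟨x, rfl⟩; exact (isNormal_stronglyClosed hQn).2 Qq le_rfl φ hφ x)
      (card_range hφ).ge
  rw [hr]
  rintro _ ⟨⟨s, hs, rfl⟩, hc⟩
  exact ⟨s, le_core hDn ⟨hs, hc⟩, rfl⟩

/-- A Sylow subgroup meets a subnormal subgroup in one of its Sylow subgroups. -/
theorem sylow_of_subnormal {G : Type*} [Group G] [Finite G] (S : Sylow p G) (H : Subgroup G) (hH : H.IsSubnormal) :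
    ∃ T : Sylow p ↥H, (T : Subgroup ↥H) = (S : Subgroup G).subgroupOf H := by
  induction hH with
  | top => exact ⟨S.subtype le_top, rfl⟩
  | step A B hle _ hN ih =>
    obtain ⟨T, hT⟩ := ih
    have := hN
    have hidx : ¬ p ∣ ((T : Subgroup ↥B) ⊓ A.subgroupOf B).relIndex (A.subgroupOf B) :=
      sylow_inf_normal (H := ⊤) (by rw [Subgroup.relIndex_top_right]; exact T.not_dvd_index) le_top le_top
        (by rw [Subgroup.normalizer_eq_top_iff.mpr inferInstance])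
    obtain ⟨T', hT'⟩ := (exists_sylow_iff inf_le_right).mpr ⟨T.2.to_le inf_le_left, hidx⟩
    refine ⟨T'.mapSurjective (f := (Subgroup.subgroupOfEquivOfLe hle).toMonoidHom)
      (Subgroup.subgroupOfEquivOfLe hle).surjective, (Sylow.coe_mapSurjective _ T').trans ?_⟩
    rw [hT']
    ext x
    refine ⟨?_, fun hx => ⟨⟨⟨(x : G), hle x.2⟩, x.2⟩, ⟨hT.ge hx, x.2⟩, Subtype.ext rfl⟩⟩
    rintro ⟨w, hw, rfl⟩
    exact (hT.le hw.1 :)

end CfsgLib.Fusion
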