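import Cfsg.Agent.Lib.Fusion.GroupNormal
import Cfsg.Agent.Lib.PResidual
import Cfsg.Agent.Lib.Puig

/-! Subsystems of `p`-power index: uniqueness, and the case of a group. (helper6) -/

set_option autoImplicit false
set_option linter.unusedSectionVars false
set_option linter.style.haveILetI false

namespace CfsgLib.Fusion

open Cfsg Cfsg.FusionSystem

universe u

section General

variable {Ω : Type u} [Group Ω] {S : Subgroup Ω} {F : FusionSystem S} {p : ℕ} [Fact p.Prime]

/-- A saturated subsystem over `T` lies in any system over `T` containing the residual automorphisms. -/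
theorem le_of_pResidual {T : Subgroup Ω} [Finite ↥T] (hT : IsPGroup p ↥T) {E' E : FusionSystem T}
    (hsat : E'.IsSaturated p) (hsub : E'.IsSubsystemOf F)
    (hE : ∀ P : Subgroup Ω, P ≤ T → (pResidual p ↥(F.autGroup P)).map (F.autGroup P).subtype ≤ E.autGroup P) :
    E' ≤ E := by
  refine le_of_autGroup_centric_radical p hT hsat E fun R hR _ _ => ?_
  haveI := finite_of_le hR.1
  haveI := finite_aut_of_le hR.1
  obtain ⟨-, Sy, hSy⟩ := fullyNormalized_automized p hT hsat hR
  have hle : E'.autGroup R ≤ F.autGroup R :=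
    (Subgroup.closure_le _).mpr fun a ha => Subgroup.subset_closure (hsub R ha)
  intro a ha
  obtain ⟨u, hu, v, hv, huv⟩ := Subgroup.mem_sup_of_normal_right.mp
    ((CfsgLib.PResidual.sup_pResidual_eq_top Sy).ge (Subgroup.mem_top (⟨a, ha⟩ : ↥(E'.autGroup R))))
  rw [show a = ((u : ↥(E'.autGroup R)) : MulAut ↥R) * ((v : ↥(E'.autGroup R)) : MulAut ↥R) from
    congrArg Subtype.val huv.symm]
  refine mul_mem (autInducedBy_le_autGroup E hR.1 ?_) (hE R hR.1 ?_)
  · rw [hSy] at hu
    exact hu
  · exact ⟨Subgroup.inclusion hle v, CfsgLib.PResidual.map_pResidual (Subgroup.inclusion hle) ⟨v, hv, rfl⟩, rfl⟩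

end General

section Group

variable {G : Type u} [Group G] [Finite G] {p : ℕ} [Fact p.Prime] (S : Sylow p G)

/-- The residual automorphisms in a group are induced by the residual of the group. -/
theorem pResidual_aut_le {P : Subgroup G} (hP : P ≤ (S : Subgroup G) ⊓ pResidual p G) :
    (pResidual p ↥((groupFusionSystem (S : Subgroup G)).autGroup P)).map
        ((groupFusionSystem (S : Subgroup G)).autGroup P).subtype ≤
      (fusionSystemOfSubgroup (pResidual p G) ((S : Subgroup G) ⊓ pResidual p G) inf_le_right).autGroup P := by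
  set F := groupFusionSystem (S : Subgroup G)
  have hPS : P ≤ (S : Subgroup G) := hP.trans inf_le_left
  let f : ↥(Subgroup.normalizer (P : Set G)) →* ↥(F.autGroup P) :=
    P.normalizerMonoidHom.codRestrict _ fun n => (autGroup_carrier F hPS _).mpr
      ⟨hPS, fun x => hPS ((P.normalizerMonoidHom n) x).2, n, fun x => rfl⟩
  have hf : Function.Surjective f := by
    rintro ⟨a, ha⟩
    obtain ⟨-, -, g, hg⟩ := (autGroup_carrier F hPS a).mp ha
    have hgN : g ∈ Subgroup.normalizer (P : Set G) := mem_normalizer_iff_cj.mpr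
      (Subgroup.eq_of_le_of_card_ge (cj_le_iff.mpr fun x hx => (hg ⟨x, hx⟩) ▸ (a ⟨x, hx⟩).2) (by rw [card_cj]))
    exact ⟨⟨g, hgN⟩, Subtype.ext (MulEquiv.ext fun x => Subtype.ext (hg x).symm)⟩
  have hle : pResidual p ↥(F.autGroup P) ≤ (pResidual p ↥(Subgroup.normalizer (P : Set G))).map f := by
    haveI : ((pResidual p ↥(Subgroup.normalizer (P : Set G))).map f).Normal := Subgroup.Normal.map inferInstance f hf
    haveI := finite_aut_of_le hPS
    refine CfsgLib.PResidual.pResidual_le ?_
    refine (CfsgLib.PResidual.isPGroup_quotient (G := ↥(Subgroup.normalizer (P : Set G))) (p := p)).of_surjective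
      (QuotientGroup.map _ _ f (Subgroup.le_comap_map f _)) ?_
    intro y
    obtain ⟨b, rfl⟩ := QuotientGroup.mk'_surjective _ y
    obtain ⟨n, rfl⟩ := hf b
    exact ⟨QuotientGroup.mk n, rfl⟩
  rintro _ ⟨a, ha, rfl⟩
  obtain ⟨n, hn, rfl⟩ := hle ha
  refine (autGroup_carrier _ hP _).mpr ⟨hP, fun x => hP ((P.normalizerMonoidHom n) x).2, n, ?_, fun x => rfl⟩
  exact CfsgLib.PResidual.map_pResidual (Subgroup.normalizer (P : Set G)).subtype ⟨n, hn, rfl⟩

/-- The residual subsystem of a group system is the system of the residual of the group. -/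
theorem pResidualSystem_eq {T₀ : Subgroup G} (hT₀ : T₀ = (S : Subgroup G) ⊓ pResidual p G) (E : FusionSystem T₀)
    (hsat : E.IsSaturated p) (hidx : E.HasPPowerIndexIn (groupFusionSystem (S : Subgroup G)) p) (P : Subgroup G) :
    E.Hom P = (fusionSystemOfSubgroup (pResidual p G) ((S : Subgroup G) ⊓ pResidual p G) inf_le_right).Hom P := by
  subst hT₀
  set D := fusionSystemOfSubgroup (pResidual p G) ((S : Subgroup G) ⊓ pResidual p G) inf_le_right
  have hp : IsPGroup p ↥((S : Subgroup G) ⊓ pResidual p G) := S.2.to_le inf_le_left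
  have hN := fusionSystemOfSubgroup_isNormalIn S (pResidual p G)
  have hD : D.IsSaturated p := hN.1.1
  have hsub : D.IsSubsystemOf (groupFusionSystem (S : Subgroup G)) := hN.1.2.2.1
  exact le_antisymm (le_of_pResidual hp hsat hidx.1 (fun Q hQ => pResidual_aut_le S hQ) P)
    (le_of_pResidual hp hD hsub hidx.2.2 P)

end Group

end CfsgLib.Fusion
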