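import Cfsg.Agent.Lib.Fusion.PrimeIndex
import Cfsg.Agent.Lib.Fusion.ConstrainedNormal
import Cfsg.Agent.Lib.Fusion.Hyperfocal
import Cfsg.Agent.Lib.Fusion.Control
import Cfsg.Agent.Lib.Fusion.StrongInvariance

/-! Subsystems of `p`-power index are normal. (helper6) -/

set_option autoImplicit false
set_option linter.unusedSectionVars false
set_option linter.style.haveILetI false

namespace CfsgLib.Fusion

open Cfsg Cfsg.FusionSystem CfsgLib.Biset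

universe u

variable {Ω : Type u} [Group Ω] {S : Subgroup Ω} [Finite ↥S] {F : FusionSystem S} {p : ℕ} [Fact p.Prime]
  {T : Subgroup Ω}

/-- A normal subgroup containing the hyperfocal subgroup is strongly closed. -/
theorem stronglyClosed_of_hyp_le (hS : IsPGroup p ↥S) (hF : F.IsSaturated p) (hTS : T ≤ S)
    (hTn : (T.subgroupOf S).Normal) (hT : F.hyperfocalSubgroup p ≤ T) : F.StronglyClosed T := by
  refine ⟨hTS, fun R hR φ hφ x => ?_⟩
  obtain ⟨q, hq⟩ := exists_conj_mod_hyp p hS hF hφ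
  obtain ⟨s, rfl⟩ := QuotientGroup.mk_surjective q
  have h := hq x (le_S hφ x.2) (apply_mem_S hφ x)
  rw [← QuotientGroup.mk_inv, ← QuotientGroup.mk_mul, ← QuotientGroup.mk_mul, QuotientGroup.eq] at h
  have h1 : ((⟨φ x, apply_mem_S hφ x⟩ : ↥S)⁻¹ * (s * ⟨x, le_S hφ x.2⟩ * s⁻¹)) ∈ T.subgroupOf S :=
    Subgroup.mem_subgroupOf.mpr (hT (Subgroup.mem_subgroupOf.mp h))
  have h2 : s * ⟨x, le_S hφ x.2⟩ * s⁻¹ ∈ T.subgroupOf S := hTn.conj_mem _ (Subgroup.mem_subgroupOf.mpr (hR x.2)) s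
  have h3 := (T.subgroupOf S).mul_mem h2 ((T.subgroupOf S).inv_mem h1)
  have h4 : (⟨φ x, apply_mem_S hφ x⟩ : ↥S) ∈ T.subgroupOf S := by rwa [mul_inv_rev _ (s * _ * s⁻¹), inv_inv, mul_inv_cancel_left] at h3
  exact h4

variable {E : FusionSystem T}

/-- Transporting a map of the subsystem by an automorphism of `T`. -/
def TwistIn (E : FusionSystem T) (α : MulAut ↥T) (P : Subgroup Ω) (φ : ↥P →* Ω) : Prop :=
  ∃ χ ∈ E.Hom ((P.subgroupOf T).map (T.subtype.comp α.toMonoidHom)),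
    ∀ (x : P) (hPT : (x : Ω) ∈ T) (hφx : φ x ∈ T)
      (hαx : ((α ⟨x, hPT⟩ : T) : Ω) ∈ (P.subgroupOf T).map (T.subtype.comp α.toMonoidHom)),
      χ ⟨(α ⟨x, hPT⟩ : T), hαx⟩ = ((α ⟨φ x, hφx⟩ : T) : Ω)

/-- A saturated subsystem of `p`-power index is invariant under the automorphisms of `T`. -/
theorem twistIn_of_pPower (hS : IsPGroup p ↥S) (hT : F.StronglyClosed T) (hEs : E.IsSaturated p)
    (hEi : E.HasPPowerIndexIn F p) {α : MulAut ↥T} (hα : α ∈ F.autGroup T) {P : Subgroup Ω} {φ : ↥P →* Ω}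
    (hφ : φ ∈ E.Hom P) : TwistIn E α P φ := by
  have hTS := hT.1
  haveI := finite_of_le hTS
  let M : ∀ P : Subgroup Ω, (↥P →* Ω) → Prop := fun P φ => ∃ (P' : Subgroup Ω) (φ' : ↥P' →* Ω), φ' ∈ E.Hom P' ∧
    Corr α φ φ'
  let E' := subsystem E M
    (fun {P g} hP hg => ⟨img α P, conjHom _ ((α ⟨g, hg⟩ : ↥T) : Ω), E.conj_mem (img_le _ _) (α ⟨g, hg⟩).2,
      fun x => ⟨hP x.2, T.mul_mem (T.mul_mem hg (hP x.2)) (T.inv_mem hg), (apply_mem_img α).mpr x.2, by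
        show ((α ⟨g, hg⟩ : ↥T) : Ω) * (α ⟨x, _⟩ : Ω) * ((α ⟨g, hg⟩ : ↥T) : Ω)⁻¹ = _
        rw [← Subgroup.coe_inv, ← Subgroup.coe_mul, ← Subgroup.coe_mul, ← map_inv, ← map_mul, ← map_mul]
        rfl⟩⟩)
    (fun {P Q φ ψ} _ hφ _ hψ h => by
      obtain ⟨P', φ', hφ', hc⟩ := hφ
      obtain ⟨Q', ψ', hψ', hd⟩ := hψ
      have hle : img α P ≤ P' := fun y hy => by
        obtain ⟨w, hw, rfl⟩ := (mem_img α).mp hy
        obtain ⟨h1, h2, h3, h4⟩ := hc ⟨w, hw⟩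
        exact h3
      have hv : ∀ z, φ'.comp (Subgroup.inclusion hle) z ∈ Q' := by
        rintro ⟨z, hz⟩
        obtain ⟨w, hw, rfl⟩ := (mem_img α).mp hz
        obtain ⟨h1, h2, h3, h4⟩ := hc ⟨w, hw⟩
        obtain ⟨k1, k2, k3, k4⟩ := hd ⟨_, h ⟨w, hw⟩⟩
        show φ' ⟨(α w : Ω), _⟩ ∈ Q'
        exact h4.symm ▸ k3
      refine ⟨_, _, E.comp_mem (restrict_mem hφ' hle) hψ' hv, fun x => ?_⟩
      obtain ⟨h1, h2, h3, h4⟩ := hc x
      obtain ⟨k1, k2, k3, k4⟩ := hd ⟨_, h x⟩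
      exact ⟨h1, k2, (apply_mem_img α).mpr x.2, (congrArg ψ' (Subtype.ext h4)).trans k4⟩)
    (fun {P φ} _ hφ ψ _ hψe => by
      obtain ⟨P', φ', hφ', hc⟩ := hφ
      obtain ⟨ψ', hψ', hψ'e⟩ := E.inv_mem hφ'
      refine ⟨_, ψ', hψ', ?_⟩
      rintro ⟨_, x, rfl⟩
      obtain ⟨h1, h2, h3, h4⟩ := hc x
      refine ⟨h2, (hψe x).symm ▸ h1, ⟨⟨_, h3⟩, h4⟩, ?_⟩
      refine ((congrArg ψ' (Subtype.ext h4.symm)).trans (hψ'e ⟨_, h3⟩)).trans ?_
      exact congrArg (fun v : ↥T => (α v : Ω)) (Subtype.ext (hψe x).symm))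
  have key : E ≤ E' := le_of_autGroup p (hS.to_le hTS) hEs E' fun R hR _ => by
    have hRT := hR.1
    haveI := finite_of_le hRT
    haveI := finite_aut_of_le hRT
    obtain ⟨-, Sy, hSy⟩ := fullyNormalized_automized p (hS.to_le hTS) hEs hR
    intro a ha
    obtain ⟨u, hu, v, hv, huv⟩ := Subgroup.mem_sup_of_normal_right.mp
      ((CfsgLib.PResidual.sup_pResidual_eq_top Sy).ge (Subgroup.mem_top (⟨a, ha⟩ : ↥(E.autGroup R))))
    rw [show a = ((u : ↥(E.autGroup R)) : MulAut ↥R) * ((v : ↥(E.autGroup R)) : MulAut ↥R) from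
      congrArg Subtype.val huv.symm]
    refine mul_mem (autInducedBy_le_autGroup E' hRT ?_) ?_
    · rw [hSy] at hu; exact hu
    set R' := img α R
    have hR' : R' ≤ T := img_le α R
    have hR'S : R' ≤ S := hR'.trans hTS
    have hRS : R ≤ S := hRT.trans hTS
    haveI := finite_of_le hR'S
    let θ : ↥(E.autGroup R) →* ↥(F.autGroup R') :=
      ((MulAut.congr (imgEquiv α hRT)).toMonoidHom.comp (E.autGroup R).subtype).codRestrict _ fun b => by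
        have hA := (autGroup_carrier F hTS α).mp hα
        have he : R'.subtype.comp (imgEquiv α hRT).toMonoidHom ∈ F.Hom R :=
          restrict_mem_of_eq hA hRT fun x => rfl
        refine (autGroup_carrier F hR'S _).mpr (trans_mem ((imgEquiv α hRT).symm.trans (b : MulAut ↥R)) (imgEquiv α hRT)
          (trans_mem (imgEquiv α hRT).symm _ (symm_mem _ he) ?_) he)
        exact hEi.1 R ((autGroup_carrier E hRT _).mp b.2)
    have hθv : θ v ∈ pResidual p ↥(F.autGroup R') := CfsgLib.PResidual.map_pResidual θ ⟨v, hv, rfl⟩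
    have hE' : ((θ v : ↥(F.autGroup R')) : MulAut ↥R') ∈ E.autGroup R' := hEi.2.2 R' hR' ⟨_, hθv, rfl⟩
    refine (autGroup_carrier E' hRT _).mpr ⟨(autGroup_carrier E hRT _).mp (v : ↥(E.autGroup R)).2,
      R', _, (autGroup_carrier E hR' _).mp hE', fun x => ⟨hRT x.2, hRT ((v : MulAut ↥R) x).2, (apply_mem_img α).mpr x.2, ?_⟩⟩
    show ((imgEquiv α hRT ((v : MulAut ↥R) ((imgEquiv α hRT).symm (imgEquiv α hRT x))) : ↥R') : Ω) = _
    rw [MulEquiv.symm_apply_apply]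
    rfl
  obtain ⟨P', φ', hφ', hc⟩ := (key P hφ).2
  have hle : (P.subgroupOf T).map (T.subtype.comp α.toMonoidHom) ≤ P' := by
    rintro _ ⟨z, hz, rfl⟩
    obtain ⟨h1, h2, h3, h4⟩ := hc ⟨z, hz⟩
    exact h3
  refine ⟨φ'.comp (Subgroup.inclusion hle), restrict_mem hφ' hle, fun x hPT hφx hαx => ?_⟩
  obtain ⟨h1, h2, h3, h4⟩ := hc x
  exact h4

/-- The Frattini condition for a saturated subsystem of `p`-power index. -/
theorem frattini_of_pPower (hS : IsPGroup p ↥S) (hF : F.IsSaturated p) (hT : F.StronglyClosed T)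
    (hEs : E.IsSaturated p) (hEi : E.HasPPowerIndexIn F p) {P : Subgroup Ω} (hPT : P ≤ T) {φ : ↥P →* Ω}
    (hφ : φ ∈ F.Hom P) :
    ∃ α ∈ F.autGroup T, ∃ φ₀ ∈ E.Hom P, ∀ (x : P) (hx : φ₀ x ∈ T), φ x = ((α ⟨φ₀ x, hx⟩ : T) : Ω) := by
  have hTS := hT.1
  have hTn := StronglyClosed.normal hT
  haveI := finite_of_le hTS
  let M : ∀ P : Subgroup Ω, (↥P →* Ω) → Prop := fun P φ =>
    ∃ α ∈ F.autGroup T, ∃ φ₀ ∈ E.Hom (P ⊓ T), ∀ (x : ↥(P ⊓ T)) (hx : φ₀ x ∈ T),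
      φ (Subgroup.inclusion inf_le_left x) = ((α ⟨φ₀ x, hx⟩ : T) : Ω)
  let E₁ := subsystem F M
    (fun {P g} hP hg => ⟨T.normalizerMonoidHom ⟨g, hTn hg⟩,
      autInducedBy_le_autGroup F hTS ((mem_autInducedBy _).mpr ⟨g, hg, fun x => rfl⟩), _,
      incl_mem E inf_le_right, fun x hx => rfl⟩)
    (fun {P Q φ ψ} hφ' hφM hψ' hψM hh => by
      obtain ⟨α, hα, φ₀, hφ₀, e1⟩ := hφM
      obtain ⟨β, hβ, ψ₀, hψ₀, e2⟩ := hψM
      obtain ⟨ψ₁, hψ₁, hc⟩ := twistIn_of_pPower hS hT hEs hEi (inv_mem hα) hψ₀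
      have hT1 : ∀ x : ↥(P ⊓ T), φ (Subgroup.inclusion inf_le_left x) ∈ T := fun x => by
        rw [e1 x (apply_mem_S hφ₀ x)]; exact (α _).2
      have hmemQ : ∀ x : ↥(P ⊓ T), φ (Subgroup.inclusion inf_le_left x) ∈ Q ⊓ T := fun x => ⟨hh _, hT1 x⟩
      have hv : ∀ x, φ₀ x ∈ ((Q ⊓ T).subgroupOf T).map (T.subtype.comp (α⁻¹ : MulAut ↥T).toMonoidHom) := fun x => by
        refine ⟨α ⟨φ₀ x, apply_mem_S hφ₀ x⟩, Subgroup.mem_subgroupOf.mpr ((e1 x (apply_mem_S hφ₀ x)) ▸ hmemQ x), ?_⟩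
        show ((α⁻¹ (α ⟨φ₀ x, _⟩) : ↥T) : Ω) = φ₀ x
        rw [MulAut.inv_apply_self]
      refine ⟨β * α, mul_mem hβ hα, _, E.comp_mem hφ₀ hψ₁ hv, fun x hx => ?_⟩
      show ψ ⟨φ (Subgroup.inclusion inf_le_left x), hh _⟩ = _
      have h2 : ψ₀ ⟨_, hmemQ x⟩ ∈ T := apply_mem_S hψ₀ _
      refine (e2 ⟨_, hmemQ x⟩ h2).trans ?_
      rw [MulAut.mul_apply]
      refine congrArg (fun v : ↥T => ((β v : ↥T) : Ω)) ?_
      have h3 := hc ⟨_, hmemQ x⟩ (hT1 x) h2 ⟨⟨_, hT1 x⟩, hmemQ x, rfl⟩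
      have e3 : (⟨φ (Subgroup.inclusion inf_le_left x), hT1 x⟩ : ↥T) = α ⟨φ₀ x, apply_mem_S hφ₀ x⟩ :=
        Subtype.ext (e1 x _)
      have e4 : (⟨ψ₁.comp (φ₀.codRestrict _ hv) x, hx⟩ : ↥T) = α⁻¹ ⟨ψ₀ ⟨_, hmemQ x⟩, h2⟩ := Subtype.ext (by
        refine Eq.trans (congrArg ψ₁ (Subtype.ext ?_)) h3
        show φ₀ x = ((α⁻¹ (⟨φ (Subgroup.inclusion inf_le_left x), hT1 x⟩ : ↥T) : ↥T) : Ω)
        rw [e3, MulAut.inv_apply_self])
      rw [e4, MulAut.apply_inv_self])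
    (fun {P φ} hφ' hφM ψ hψ' hψe => by
      obtain ⟨α, hα, φ₀, hφ₀, e1⟩ := hφM
      obtain ⟨η, hη, hηe⟩ := E.inv_mem hφ₀
      obtain ⟨η', hη', hc⟩ := twistIn_of_pPower hS hT hEs hEi hα hη
      have hback : ∀ x : P, φ x ∈ T → (x : Ω) ∈ T := fun x hx => by
        have h1 := apply_mem_closed hT hψ' ⟨φ x, x, rfl⟩ hx
        rwa [hψe] at h1
      have hle : φ.range ⊓ T ≤ (φ₀.range.subgroupOf T).map (T.subtype.comp α.toMonoidHom) := by
        rintro _ ⟨⟨x, rfl⟩, hxT⟩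
        exact ⟨⟨φ₀ ⟨x, x.2, hback x hxT⟩, apply_mem_S hφ₀ _⟩, Subgroup.mem_subgroupOf.mpr ⟨_, rfl⟩,
          (e1 ⟨x, x.2, hback x hxT⟩ _).symm⟩
      refine ⟨α⁻¹, inv_mem hα, _, restrict_mem hη' hle, ?_⟩
      rintro ⟨y, ⟨x, rfl⟩, hxT⟩ hx
      refine (hψe x).trans ?_
      set z : ↥(P ⊓ T) := ⟨x, x.2, hback x hxT⟩
      have h2 : η ⟨φ₀ z, z, rfl⟩ ∈ T := apply_mem_S hη _
      have h3 := hc ⟨φ₀ z, z, rfl⟩ (apply_mem_S hφ₀ z) h2 ⟨⟨_, apply_mem_S hφ₀ z⟩, ⟨z, rfl⟩, rfl⟩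
      have e3 : (⟨η'.comp (Subgroup.inclusion hle) ⟨φ x, ⟨x, rfl⟩, hxT⟩, hx⟩ : ↥T) = α ⟨η ⟨φ₀ z, z, rfl⟩, h2⟩ :=
        Subtype.ext ((congrArg η' (Subtype.ext (e1 z (apply_mem_S hφ₀ z)))).trans h3)
      rw [e3, MulAut.inv_apply_self]
      exact (hηe z).symm)
  have key : F ≤ E₁ := le_of_autGroup p hS hF E₁ fun R hR _ => by
    have hRS := hR.1
    haveI := finite_of_le hRS
    haveI := finite_aut_of_le hRS
    obtain ⟨-, Sy, hSy⟩ := fullyNormalized_automized p hS hF hR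
    intro a ha
    obtain ⟨u, hu, v, hv, huv⟩ := Subgroup.mem_sup_of_normal_right.mp
      ((CfsgLib.PResidual.sup_pResidual_eq_top Sy).ge (Subgroup.mem_top (⟨a, ha⟩ : ↥(F.autGroup R))))
    rw [show a = ((u : ↥(F.autGroup R)) : MulAut ↥R) * ((v : ↥(F.autGroup R)) : MulAut ↥R) from
      congrArg Subtype.val huv.symm]
    refine mul_mem (autInducedBy_le_autGroup E₁ hRS ?_) ?_
    · rw [hSy] at hu; exact hu
    set U := R ⊓ T
    have hUT : U ≤ T := inf_le_right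
    have hUR : U ≤ R := inf_le_left
    have hUS : U ≤ S := hUT.trans hTS
    have hinvU : ∀ b ∈ F.autGroup R, ∀ x : ↥U, ((b (Subgroup.inclusion hUR x) : ↥R) : Ω) ∈ U := fun b hb x =>
      ⟨(b _).2, apply_mem_closed hT ((autGroup_carrier F hRS b).mp hb) _ x.2.2⟩
    let res : ↥(F.autGroup R) →* ↥(F.autGroup U) := (resHom hUR (F.autGroup R) hinvU).codRestrict _ fun b =>
      (autGroup_carrier F hUS _).mpr (restrict_mem_of_eq ((autGroup_carrier F hRS _).mp b.2) hUR fun x => rfl)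
    have hres : ((res v : ↥(F.autGroup U)) : MulAut ↥U) ∈ E.autGroup U :=
      hEi.2.2 U hUT ⟨_, CfsgLib.PResidual.map_pResidual res ⟨v, hv, rfl⟩, rfl⟩
    exact (autGroup_carrier E₁ hRS _).mpr ⟨(autGroup_carrier F hRS _).mp (v : ↥(F.autGroup R)).2, 1, one_mem _, _,
      (autGroup_carrier E hUT _).mp hres, fun x hx => rfl⟩
  obtain ⟨α, hα, φ₀, hφ₀, he⟩ := (key P hφ).2
  have hle : P ≤ P ⊓ T := le_inf le_rfl hPT
  exact ⟨α, hα, _, restrict_mem hφ₀ hle, fun x hx => he (Subgroup.inclusion hle x) hx⟩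

/-- A saturated subsystem of `p`-power index over a normal subgroup is normal. -/
theorem isNormalIn_of_pPower (hS : IsPGroup p ↥S) (hF : F.IsSaturated p) (hTS : T ≤ S)
    (hTn : (T.subgroupOf S).Normal) (hT : F.hyperfocalSubgroup p ≤ T) (hEs : E.IsSaturated p)
    (hEi : E.HasPPowerIndexIn F p) : E.IsNormalIn F p := by
  have hsc := stronglyClosed_of_hyp_le hS hF hTS hTn hT
  refine ⟨⟨hEs, hF, hEi.1, hsc, fun P hPT φ hφ α hα => ?_, fun P hPT φ hφ => frattini_of_pPower hS hF hsc hEs hEi hPT hφ⟩,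
    fun α hα => ?_⟩
  · obtain ⟨χ, hχ, hc⟩ := twistIn_of_pPower hS hsc hEs hEi hα hφ
    exact ⟨χ, hχ, fun x hφx hαx => hc x _ hφx hαx⟩
  haveI := finite_of_le hTS
  haveI := finite_aut_of_le hTS
  have hsub := hEi.1
  have hTN := StronglyClosed.normal hsc
  set C := centralizerIn S T
  have hCS : C ≤ S := inf_le_left
  have hWS : T ⊔ C ≤ S := sup_le hTS hCS
  haveI := finite_of_le hWS
  haveI := finite_aut_of_le hWS
  have hC : ∀ (f : MulAut ↥(T ⊔ C)), (∀ z : ↥(T ⊔ C), (z : Ω) ∈ T → ((f z : ↥(T ⊔ C)) : Ω) ∈ T) →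
      ∀ z : ↥(T ⊔ C), (z : Ω) ∈ C → ((f z : ↥(T ⊔ C)) : Ω) ∈ C := by
    intro f hf z hz
    refine ⟨hWS (f z).2, Subgroup.mem_centralizer_iff.mpr fun t ht => ?_⟩
    let g : ↥T → ↥T := fun w => ⟨_, hf (Subgroup.inclusion le_sup_left w) w.2⟩
    have hg : Function.Surjective g := Finite.injective_iff_surjective.mp fun a b hab =>
      Subgroup.inclusion_injective (le_sup_left : T ≤ T ⊔ C) (f.injective (Subtype.ext (congrArg Subtype.val hab :)))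
    obtain ⟨w, hw⟩ := hg ⟨t, ht⟩
    rw [← show ((f (Subgroup.inclusion le_sup_left w) : ↥(T ⊔ C)) : Ω) = t from congrArg Subtype.val hw,
      ← Subgroup.coe_mul, ← Subgroup.coe_mul, ← map_mul, ← map_mul]
    refine congrArg (fun v => ((f v : ↥(T ⊔ C)) : Ω)) (Subtype.ext ?_)
    exact Subgroup.mem_centralizer_iff.mp hz.2 w w.2
  let Good : MulAut ↥T → Prop := fun a => ∃ β ∈ F.autGroup (T ⊔ C),
    (∀ x : T, ((β (Subgroup.inclusion le_sup_left x) : ↥(T ⊔ C)) : Ω) = ((a x : T) : Ω)) ∧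
    ∀ c : ↥(T ⊔ C), (c : Ω) ∈ C → (c : Ω)⁻¹ * ((β c : ↥(T ⊔ C)) : Ω) ∈ T ⊓ Subgroup.centralizer (T : Set Ω)
  have hextF : ∀ a ∈ F.autGroup T, ∃ β ∈ F.autGroup (T ⊔ C),
      ∀ x : T, ((β (Subgroup.inclusion le_sup_left x) : ↥(T ⊔ C)) : Ω) = ((a x : T) : Ω) := by
    intro a ha
    have hφ := (autGroup_carrier F hTS a).mp ha
    set φ : ↥T →* Ω := T.subtype.comp a.toMonoidHom
    have hr : φ.range = T := by
      ext y
      exact ⟨fun ⟨x, hx⟩ => hx ▸ (a x).2, fun hy => ⟨a.symm ⟨y, hy⟩, by simp [φ]⟩⟩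
    obtain ⟨ψ, hψ, hψe⟩ := (fullyNormalized_receptive p hS hF (fullyNormalized_of_normal hTS hTN)).2 T φ hφ hr
    have hle : T ⊔ C ≤ extender S T φ := sup_le (le_extender hφ) (centralizerIn_le_extender φ)
    set χ := ψ.comp (Subgroup.inclusion hle)
    have hχT : ∀ x : T, χ (Subgroup.inclusion le_sup_left x) = ((a x : T) : Ω) := fun x => hψe x x.2 _
    have hm : ∀ z, χ z ∈ T ⊔ C := fun z => apply_mem_of_sup χ
      (fun x => Subgroup.mem_sup_left (by rw [hχT]; exact (a x).2))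
      (fun c => Subgroup.mem_sup_right <| show χ _ ∈ centralizerIn S T from ⟨apply_mem_S (restrict_mem hψ hle) _, Subgroup.mem_centralizer_iff.mpr fun t ht => by
        rw [← show χ (Subgroup.inclusion le_sup_left (a.symm ⟨t, ht⟩)) = t by rw [hχT]; simp, ← map_mul, ← map_mul]
        exact congrArg χ (Subtype.ext (Subgroup.mem_centralizer_iff.mp c.2.2 _ (a.symm ⟨t, ht⟩).2))⟩) z
    have hrange : χ.range = T ⊔ C :=
      Subgroup.eq_of_le_of_card_ge (by rintro _ ⟨z, rfl⟩; exact hm z) (card_range (restrict_mem hψ hle)).ge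
    refine ⟨isoOfMem (restrict_mem hψ hle) hrange, (autGroup_carrier F hWS _).mpr ?_, fun x => ?_⟩
    · rw [show (isoOfMem (restrict_mem hψ hle) hrange).toMonoidHom = _ from rfl, isoOfMem_hom _ hrange]
      exact restrict_mem hψ hle
    · exact (DFunLike.congr_fun (isoOfMem_hom (restrict_mem hψ hle) hrange) _).trans (hχT x)
  have hpT : ∀ (β : MulAut ↥(T ⊔ C)) (a : MulAut ↥T),
      (∀ x : T, ((β (Subgroup.inclusion le_sup_left x) : ↥(T ⊔ C)) : Ω) = ((a x : T) : Ω)) →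
      ∀ (z : ↥(T ⊔ C)) (hz : (z : Ω) ∈ T), ((β z : ↥(T ⊔ C)) : Ω) = ((a ⟨z, hz⟩ : T) : Ω) := fun β a h z hz => h ⟨z, hz⟩
  let B : Subgroup ↥(E.autGroup T) :=
    { carrier := {a | Good a}
      one_mem' := ⟨1, one_mem _, fun x => rfl, fun c _ => by simp⟩
      mul_mem' := by
        rintro a b ⟨β, hβ, hβT, hβC⟩ ⟨γ, hγ, hγT, hγC⟩
        refine ⟨β * γ, mul_mem hβ hγ, fun x => ?_, fun c hc => ?_⟩
        · show ((β (γ _) : ↥(T ⊔ C)) : Ω) = _
          rw [show γ (Subgroup.inclusion le_sup_left x) = Subgroup.inclusion le_sup_left ((b : MulAut ↥T) x) from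
            Subtype.ext (hγT x), hβT]
          rfl
        · have hγc := hC γ (fun z hz => by rw [hpT γ _ hγT z hz]; exact ((b : MulAut ↥T) _).2) c hc
          have h1 := hβC (γ c) hγc
          have h2 := hγC c hc
          have := Subgroup.mul_mem _ h2 h1
          simpa [mul_assoc] using this
      inv_mem' := by
        rintro a ⟨β, hβ, hβT, hβC⟩
        have hinvT : ∀ x : T, ((β⁻¹ (Subgroup.inclusion le_sup_left x) : ↥(T ⊔ C)) : Ω) =
            (((a : MulAut ↥T)⁻¹ x : T) : Ω) := by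
          intro x
          rw [show β⁻¹ (Subgroup.inclusion le_sup_left x) = Subgroup.inclusion le_sup_left ((a : MulAut ↥T)⁻¹ x) from by
            apply β.injective
            rw [MulAut.apply_inv_self]
            exact Subtype.ext ((hβT _).trans (congrArg Subtype.val (MulAut.apply_inv_self _ _ x))).symm]
          rfl
        refine ⟨β⁻¹, inv_mem hβ, hinvT, fun c hc => ?_⟩
        have hc' := hC β⁻¹ (fun z hz => by rw [hpT β⁻¹ _ hinvT z hz]; exact (((a : MulAut ↥T)⁻¹) _).2) c hc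
        have h1 := Subgroup.inv_mem _ (hβC (β⁻¹ c) hc')
        rw [MulAut.apply_inv_self] at h1
        simpa using h1 }
  haveI hBn : B.Normal := ⟨fun a ha g => by
    obtain ⟨β, hβ, hβT, hβC⟩ := ha
    obtain ⟨γ, hγ, hγT⟩ := hextF g (autGroup_mono F E hsub T g.2)
    have hinvT : ∀ x : T, ((γ⁻¹ (Subgroup.inclusion le_sup_left x) : ↥(T ⊔ C)) : Ω) =
        (((g : MulAut ↥T)⁻¹ x : T) : Ω) := by
      intro x
      rw [show γ⁻¹ (Subgroup.inclusion le_sup_left x) = Subgroup.inclusion le_sup_left ((g : MulAut ↥T)⁻¹ x) from by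
        apply γ.injective
        rw [MulAut.apply_inv_self]
        exact Subtype.ext ((hγT _).trans (congrArg Subtype.val (MulAut.apply_inv_self _ _ x))).symm]
      rfl
    refine ⟨γ * β * γ⁻¹, mul_mem (mul_mem hγ hβ) (inv_mem hγ), fun x => ?_, fun c hc => ?_⟩
    · show ((γ (β (γ⁻¹ _)) : ↥(T ⊔ C)) : Ω) = _
      rw [show γ⁻¹ (Subgroup.inclusion le_sup_left x) = Subgroup.inclusion le_sup_left ((g : MulAut ↥T)⁻¹ x) from
        Subtype.ext (hinvT x), show β (Subgroup.inclusion le_sup_left ((g : MulAut ↥T)⁻¹ x)) =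
          Subgroup.inclusion le_sup_left ((a : MulAut ↥T) ((g : MulAut ↥T)⁻¹ x)) from Subtype.ext (hβT _), hγT]
      rfl
    · have hc' := hC γ⁻¹ (fun z hz => by rw [hpT γ⁻¹ _ hinvT z hz]; exact (((g : MulAut ↥T)⁻¹) _).2) c hc
      have h1 := hβC (γ⁻¹ c) hc'
      set d : ↥(T ⊔ C) := γ⁻¹ c
      have hd : (((d⁻¹ * β d : ↥(T ⊔ C))) : Ω) ∈ T ⊓ Subgroup.centralizer (T : Set Ω) := h1
      have hgd : ((γ (d⁻¹ * β d) : ↥(T ⊔ C)) : Ω) ∈ T ⊓ Subgroup.centralizer (T : Set Ω) := by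
        have hdC : ((d⁻¹ * β d : ↥(T ⊔ C)) : Ω) ∈ C := ⟨hWS (d⁻¹ * β d).2, hd.2⟩
        exact ⟨by rw [hpT γ _ hγT _ hd.1]; exact ((g : MulAut ↥T) _).2,
          (hC γ (fun z hz => by rw [hpT γ _ hγT z hz]; exact ((g : MulAut ↥T) _).2) _ hdC).2⟩
      rw [map_mul, map_inv, show γ d = c from MulAut.apply_inv_self _ _ _] at hgd
      exact hgd⟩
  obtain ⟨-, P0, hP0⟩ := fullyNormalized_automized p (hS.to_le hTS) hEs (fullyNormalized_S E)
  have hPB : (P0 : Subgroup ↥(E.autGroup T)) ≤ B := by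
    rw [hP0]
    intro a ha
    obtain ⟨t, ht, hte⟩ := (mem_autInducedBy _).mp (Subgroup.mem_subgroupOf.mp ha)
    have htN : t ∈ Subgroup.normalizer ((T ⊔ C : Subgroup Ω) : Set Ω) :=
      Subgroup.le_normalizer (Subgroup.mem_sup_left ht)
    refine ⟨(T ⊔ C).normalizerMonoidHom ⟨t, htN⟩,
      autInducedBy_le_autGroup F hWS ((mem_autInducedBy _).mpr ⟨t, hTS ht, fun x => rfl⟩), fun x => (hte x).symm,
      fun c hc => ?_⟩
    show (c : Ω)⁻¹ * (t * c * t⁻¹) ∈ _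
    rw [Subgroup.mem_centralizer_iff.mp hc.2 t ht, mul_inv_cancel_right, inv_mul_cancel]
    exact one_mem _
  suffices h : (⟨α, hα⟩ : ↥(E.autGroup T)) ∈ B from h
  obtain ⟨k, hk⟩ := P0.2.exists_card_eq
  refine mem_of_pow_mem (p := p) (k := k) (fun hd => P0.not_dvd_index (hd.trans (Subgroup.index_dvd_of_le hPB))) ?_
  set a : ↥(E.autGroup T) := ⟨α, hα⟩ ^ p ^ k
  obtain ⟨β, hβ, hβT⟩ := hextF a (autGroup_mono F E hsub T a.2)
  obtain ⟨i, n, hn, hin⟩ := Nat.exists_eq_pow_mul_and_not_dvd (orderOf_pos β).ne' p (Fact.out : p.Prime).ne_one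
  -- the order of `a` is prime to `p`
  have hm : ¬ p ∣ orderOf a := fun hd => by
    have h1 : a ^ ((P0 : Subgroup ↥(E.autGroup T)).index) = 1 := by
      rw [← pow_mul, ← hk, Subgroup.card_mul_index, pow_card_eq_one']
    exact P0.not_dvd_index (hd.trans (orderOf_dvd_of_pow_eq_one h1))
  have hcop : (p ^ i).Coprime (orderOf a) :=
    Nat.Coprime.pow_left i ((Fact.out : p.Prime).coprime_iff_not_dvd.mpr hm)
  obtain ⟨u, hu⟩ : ∃ u : ℕ, a ^ (p ^ i * u) = a := by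
    obtain ⟨u, hu⟩ := exists_pow_eq_self_of_coprime hcop
    exact ⟨u, by rw [pow_mul]; exact hu⟩
  have hrest : ∀ (j : ℕ) (x : T),
      (β ^ j) (Subgroup.inclusion le_sup_left x) = Subgroup.inclusion le_sup_left (((a : MulAut ↥T) ^ j) x) := by
    intro j
    induction j with
    | zero => intro x; rfl
    | succ j ih =>
      intro x
      rw [pow_succ' β, pow_succ' (a : MulAut ↥T), MulAut.mul_apply, MulAut.mul_apply, ih]
      exact Subtype.ext (hβT _)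
  set β' := β ^ (p ^ i * u)
  have hβ'F : β' ∈ F.autGroup (T ⊔ C) := pow_mem hβ _
  have hres : (⟨β', hβ'F⟩ : ↥(F.autGroup (T ⊔ C))) ∈ pResidual p ↥(F.autGroup (T ⊔ C)) := by
    refine CfsgLib.PResidual.mem_pResidual ?_
    rw [Subgroup.orderOf_mk]
    refine Nat.Coprime.coprime_dvd_left (orderOf_dvd_of_pow_eq_one ?_) (((Fact.out : p.Prime).coprime_iff_not_dvd.mpr hn).symm)
    rw [← pow_mul, mul_comm _ n, ← mul_assoc, mul_comm n, pow_mul, ← hin, pow_orderOf_eq_one, one_pow]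
  have hβ'T : ∀ x : T, ((β' (Subgroup.inclusion le_sup_left x) : ↥(T ⊔ C)) : Ω) = (((a : MulAut ↥T) x : T) : Ω) := by
    intro x
    show (((β ^ (p ^ i * u)) _ : ↥(T ⊔ C)) : Ω) = _
    rw [hrest, ← SubgroupClass.coe_pow, hu]
    rfl
  refine ⟨β', hβ'F, hβ'T, fun c hc => ⟨hT (Subgroup.subset_closure ⟨T ⊔ C, ⟨β', hβ'F⟩, c, hWS, hres, rfl⟩), ?_⟩⟩
  exact Subgroup.mul_mem _ (Subgroup.inv_mem _ hc.2)
    (hC β' (fun z hz => by rw [hpT β' _ hβ'T z hz]; exact ((a : MulAut ↥T) _).2) c hc).2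

end CfsgLib.Fusion
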