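import Cfsg.Agent.Lib.Fusion.Simple
import Cfsg.Agent.Lib.SLn.Unitriangular

/-! The fusion system of `PSL_n` in the defining characteristic, `n ≥ 3`. -/

set_option autoImplicit false

namespace CfsgLib.Fusion

open Cfsg Cfsg.FusionSystem CfsgLib.SLn

/-- A nontrivial normal subgroup of a finite `p`-group meets the centre. -/
theorem normal_inf_center_ne_bot {p : ℕ} [Fact p.Prime] {P : Type*} [Group P] [Finite P] (hP : IsPGroup p P)
    {N : Subgroup P} (hN : N.Normal) (hNe : N ≠ ⊥) : N ⊓ Subgroup.center P ≠ ⊥ := by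
  letI : MulAction P ↥N := MulAction.compHom ↥N (MulAut.conjNormal : P →* MulAut ↥N)
  haveI : Nontrivial ↥N := (Subgroup.nontrivial_iff_ne_bot N).mpr hNe
  obtain ⟨k, hk0, hk⟩ := (hP.to_subgroup N).nontrivial_iff_card.mp inferInstance
  have h1 : (1 : ↥N) ∈ MulAction.fixedPoints P ↥N := fun g => map_one (MulAut.conjNormal (H := N) g)
  obtain ⟨z, hz, hz1⟩ := hP.exists_fixed_point_of_prime_dvd_card_of_fixed_point ↥N (hk ▸ dvd_pow_self p hk0.ne') h1
  rw [Subgroup.ne_bot_iff_exists_ne_one]
  refine ⟨⟨z, z.2, Subgroup.mem_center_iff.mpr fun g => ?_⟩, fun e => hz1 ?_⟩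
  · have h : (MulAut.conjNormal g z : P) = z := congrArg Subtype.val (hz g)
    rw [MulAut.conjNormal_apply] at h
    exact mul_inv_eq_iff_eq_mul.mp h
  · exact (Subtype.ext (congrArg (fun w : ↥(N ⊓ Subgroup.center P) => (w : P)) e) : z = 1).symm

variable {n : ℕ} {K : Type*} [Field K] [Fintype K]

local notation "L" => Matrix.SpecialLinearGroup (Fin n) K

theorem exists_exponent (p : ℕ) [Fact p.Prime] [CharP K p] (u v : ↥(Un n K)) : ∃ i, (u : L) ^ p ^ i = 1 ∧ (v : L) ^ p ^ i = 1 := by
  obtain ⟨i, hi⟩ := isPGroup_Un (n := n) (K := K) p u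
  obtain ⟨j, hj⟩ := isPGroup_Un (n := n) (K := K) p v
  refine ⟨i + j, ?_, ?_⟩
  · rw [pow_add, pow_mul]; rw [show (u : L) ^ p ^ i = 1 from congrArg Subtype.val hi, one_pow]
  · rw [pow_add, mul_comm, pow_mul]; rw [show (v : L) ^ p ^ j = 1 from congrArg Subtype.val hj, one_pow]

/-- Centralizer of the unipotent radical of a minimal parabolic. -/
theorem centralizer_Rn (hn : 3 ≤ n) {a b : Fin n} (hab : b.val = a.val + 1) {x : L}
    (hx : ∀ u ∈ Rn (K := K) hab, x * u = u * x) :
    ∃ u ∈ Rn (K := K) hab, ∃ z ∈ Subgroup.center L, x = u * z := by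
  have hcomm : ∀ (k l : Fin n) (hkl : k < l), (k, l) ≠ (a, b) → ∀ i j,
      (if l = j then x.1 i k else 0) = (if k = i then x.1 l j else 0) := by
    intro k l hkl hne i j
    have hmem : Matrix.SpecialLinearGroup.transvection hkl.ne (1 : K) ∈ Rn (K := K) hab := by
      refine ⟨tv_mem_Un hkl 1, ?_⟩
      rw [tv_entry, if_neg (fun e => by subst e; omega), if_neg (fun e => hne (Prod.ext e.1 e.2)), add_zero]
    have h := congrArg (fun g : L => g.1 i j) (hx _ hmem)
    simpa [mul_tv_entry, tv_mul_entry] using h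
  have hcol : ∀ (k : Fin n) (l : Fin n), k < l → (k, l) ≠ (a, b) → ∀ i, i ≠ k → x.1 i k = 0 :=
    fun k l hkl hne i hi => by simpa [hi.symm] using hcomm k l hkl hne i l
  have hrow : ∀ (k : Fin n) (l : Fin n), k < l → (k, l) ≠ (a, b) → ∀ j, j ≠ l → x.1 l j = 0 :=
    fun k l hkl hne j hj => by simpa [hj.symm] using (hcomm k l hkl hne k j).symm
  have hdiag1 : ∀ (k l : Fin n), k < l → (k, l) ≠ (a, b) → x.1 k k = x.1 l l :=
    fun k l hkl hne => by simpa using hcomm k l hkl hne k l
  have hdiag : ∀ k l : Fin n, k < l → x.1 k k = x.1 l l := by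
    intro k l hkl
    by_cases hne : (k, l) = (a, b)
    · simp only [Prod.mk.injEq] at hne
      obtain ⟨rfl, rfl⟩ := hne
      by_cases h : l.val + 1 < n
      · have h1 := hdiag1 k ⟨l.val + 1, h⟩ (by rw [Fin.lt_def]; simp; omega) (by simp [Fin.ext_iff])
        have h2 := hdiag1 l ⟨l.val + 1, h⟩ (by rw [Fin.lt_def]; simp) (by simp [hkl.ne'])
        exact h1.trans h2.symm
      · have h1 := hdiag1 ⟨0, by omega⟩ k (by rw [Fin.lt_def]; simp; omega) (by simp [hkl.ne])
        have h2 := hdiag1 ⟨0, by omega⟩ l (by rw [Fin.lt_def]; simp; omega) (by simp [Fin.ext_iff]; omega)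
        exact h1.symm.trans h2
    · exact hdiag1 k l hkl hne
  have hoff : ∀ i j : Fin n, j ≤ i ∧ i ≠ j ∨ (i = a ∧ j = b) → x.1 i j = 0 := by
    intro i j h
    rcases h with ⟨hji, hne⟩ | ⟨rfl, rfl⟩
    · have hlt : j < i := lt_of_le_of_ne hji hne.symm
      by_cases he : (j, i) = (a, b)
      · simp only [Prod.mk.injEq] at he
        obtain ⟨rfl, rfl⟩ := he
        by_cases h : i.val + 1 < n
        · exact hcol j ⟨i.val + 1, h⟩ (by rw [Fin.lt_def]; simp; omega) (by simp [Fin.ext_iff]) i hne
        · exact hrow ⟨0, by omega⟩ i (by rw [Fin.lt_def]; simp; omega) (by simp [Fin.ext_iff]; omega) j hne.symm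
      · exact hcol j i hlt he i hne
    · have hne : i ≠ j := fun e => by subst e; omega
      by_cases h : j.val + 1 < n
      · exact hcol j ⟨j.val + 1, h⟩ (by rw [Fin.lt_def]; simp) (by simp [hne.symm]) i hne
      · exact hrow ⟨0, by omega⟩ i (by rw [Fin.lt_def]; simp; omega) (by simp [hne]) j hne.symm
  set o : Fin n := ⟨0, by omega⟩ with ho
  set r := x.1 o o with hr
  have hall : ∀ i, x.1 i i = r := fun i => by
    rcases lt_trichotomy o i with h | h | h
    · exact (hdiag o i h).symm
    · rw [← h]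
    · exact hdiag i o h
  have hxdet : r ^ n = 1 := by
    have h := x.2
    rw [Matrix.det_of_upperTriangular] at h
    · simpa [hall] using h
    · intro i j hji
      change (j : Fin n) < i at hji
      exact hoff i j (Or.inl ⟨hji.le, hji.ne'⟩)
  have hr0 : r ≠ 0 := fun h => by rw [h, zero_pow (by omega)] at hxdet; exact zero_ne_one hxdet
  let z : L := ⟨Matrix.scalar (Fin n) r, by simp [hxdet]⟩
  have hz : z ∈ Subgroup.center L :=
    Matrix.SpecialLinearGroup.mem_center_iff.mpr ⟨r, by simpa using hxdet, rfl⟩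
  refine ⟨x * z⁻¹, ?_, z, hz, by group⟩
  have hent : ∀ i j, (x * z⁻¹).1 i j * r = x.1 i j := by
    intro i j
    have h := congrArg (fun g : L => g.1 i j) (inv_mul_cancel_right x z)
    simp only [mul_entry (x * z⁻¹) z] at h
    rw [Finset.sum_eq_single j] at h
    · simpa [z] using h
    · intro k _ hk; simp [z, hk]
    · simp
  have hz0 : ∀ i j, x.1 i j = 0 → (x * z⁻¹).1 i j = 0 := fun i j h =>
    (mul_eq_zero.mp ((hent i j).trans h)).resolve_right hr0
  refine ⟨mem_Un.mpr ⟨fun i j h => hz0 i j (hoff i j (Or.inl ⟨h.le, h.ne'⟩)), fun i => ?_⟩,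
    hz0 a b (hoff a b (Or.inr ⟨rfl, rfl⟩))⟩
  exact mul_right_cancel₀ hr0 (by rw [hent, hall, one_mul])

variable (p : ℕ) [Fact p.Prime] [CharP K p]
variable {G : Type*} [Group G] [Finite G]
variable {f : Matrix.SpecialLinearGroup (Fin n) K →* G} (hker : f.ker ≤ Subgroup.center (Matrix.SpecialLinearGroup (Fin n) K))

include hker in
theorem conj_eq_of_map {x u v : L} {i : ℕ} (hu : u ^ p ^ i = 1) (hv : v ^ p ^ i = 1)
    (h : f (x * u * x⁻¹) = f v) : x * u * x⁻¹ = v := by
  set z := x * u * x⁻¹ * v⁻¹ with hz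
  have hzk : z ∈ Subgroup.center L := hker (by rw [MonoidHom.mem_ker, hz, map_mul, h, map_inv, mul_inv_cancel])
  have hzv : x * u * x⁻¹ = z * v := by rw [hz]; group
  have h1 : (x * u * x⁻¹) ^ p ^ i = 1 := by rw [conj_pow, hu]; group
  rw [hzv, Commute.mul_pow (Subgroup.mem_center_iff.mp hzk v).symm, hv, mul_one] at h1
  rw [hzv, center_pPower_eq_one p hzk h1, one_mul]

include p hker in
theorem eq_conj_of_mem {x u v : L} (hu : u ∈ Un n K) (hv : v ∈ Un n K) (h : f (x * u * x⁻¹) = f v) :
    x * u * x⁻¹ = v := by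
  obtain ⟨i, h1, h2⟩ := exists_exponent p ⟨u, hu⟩ ⟨v, hv⟩
  exact conj_eq_of_map p hker h1 h2 h

include hker in
theorem psl_isSimple (hn : 3 ≤ n) (hsurj : Function.Surjective f) (S : Sylow p G)
    (hS : (S : Subgroup G) = (Un n K).map f) : (groupFusionSystem (S : Subgroup G)).IsSimple p := by
  have hmS : ∀ u ∈ Un n K, f u ∈ (S : Subgroup G) := fun u hu => hS.ge ⟨u, hu, rfl⟩
  have hinj : ∀ u ∈ Un n K, f u = 1 → u = 1 := fun u hu h => by
    have := eq_conj_of_mem p hker (x := 1) hu (one_mem _) (by simpa using h)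
    simpa using this
  have hSne : (S : Subgroup G) ≠ ⊥ := fun h => by
    have h01 : (⟨0, by omega⟩ : Fin n) < ⟨1, by omega⟩ := by rw [Fin.lt_def]; exact Nat.one_pos
    have h1 := hinj _ (tv_mem_Un h01 (1 : K)) (Subgroup.mem_bot.mp (h ▸ hmS _ (tv_mem_Un h01 (1 : K))))
    have h2 := congrArg (fun g : L => g.1 ⟨0, by omega⟩ ⟨1, by omega⟩) h1
    simp [tv_entry] at h2
  have hnormS : ∀ x : L, f x ∈ Subgroup.normalizer ((S : Subgroup G) : Set G) → x ∈ Bo n K := by
    intro x hx
    refine Bo_of_normalizer fun u hu => ?_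
    have h1 := conj_mem_of_normalizer (inv_mem hx) (hmS u hu)
    rw [inv_inv, ← map_inv, ← map_mul, ← map_mul, hS] at h1
    obtain ⟨v, hv, hve⟩ := h1
    have h2 := eq_conj_of_mem p hker (x := x⁻¹) hu hv (by rw [inv_inv]; exact hve.symm)
    rw [inv_inv] at h2
    exact h2 ▸ hv
  refine group_isSimple S hSne ?_ (f '' ((Un n K : Subgroup L) : Set L) ∪
    {g | ∃ (a b : Fin n) (hab : b.val = a.val + 1) (h : L),
      h ∈ Subgroup.closure {y : L | ∃ t, y = Matrix.SpecialLinearGroup.transvection (show a ≠ b from fun e => by subst e; omega) t ∨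
        y = Matrix.SpecialLinearGroup.transvection (show b ≠ a from fun e => by subst e; omega) t} ∧ g = f h}) ?_ ?_
  · intro T hT
    by_cases h : T = ⊥
    · exact Or.inl h
    right
    obtain ⟨t0, ht0T, ht0⟩ := (T.ne_bot_iff_exists_ne_one.mp h) |> fun ⟨t, ht⟩ =>
      (⟨t.1, t.2, fun e => ht (Subtype.ext e)⟩ : ∃ t, t ∈ T ∧ t ≠ 1)
    have hTnormal : ∀ u ∈ Un n K, ∀ v, f v ∈ T → f (u * v * u⁻¹) ∈ T := by
      intro u hu v hv
      have h := hT.2 T le_rfl (conjHom T (f u))
        ((groupFusionSystem (S : Subgroup G)).conj_mem hT.1 (hmS u hu)) ⟨f v, hv⟩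
      rw [map_mul, map_mul, map_inv]
      exact h
    set N : Subgroup ↥(Un n K) := (T.comap f).subgroupOf (Un n K)
    have hN : N.Normal := ⟨fun v hv u => hTnormal u u.2 v hv⟩
    have hNne : Nontrivial ↥N := by
      rw [Subgroup.nontrivial_iff_ne_bot, Subgroup.ne_bot_iff_exists_ne_one]
      obtain ⟨u, hu, hue⟩ := hS.le (hT.1 ht0T)
      exact ⟨⟨⟨u, hu⟩, show f u ∈ T from hue ▸ ht0T⟩, fun e => ht0 (by
        rw [← hue, show u = 1 from congrArg (fun w : ↥N => ((w : ↥(Un n K)) : L)) e, map_one])⟩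
    have hZ : N ⊓ Subgroup.center ↥(Un n K) ≠ ⊥ :=
      normal_inf_center_ne_bot (isPGroup_Un p) hN ((Subgroup.nontrivial_iff_ne_bot N).mp hNne)
    obtain ⟨⟨u, huN, huZ⟩, hune⟩ := (Subgroup.ne_bot_iff_exists_ne_one).mp hZ
    set o : Fin n := ⟨0, by omega⟩ with ho
    set w : Fin n := ⟨n - 1, by omega⟩ with hw
    have how : o < w := by rw [ho, hw, Fin.lt_def]; simp; omega
    have hcomm : ∀ (k l : Fin n) (hkl : k < l) i j,
        (if l = j then (u : L).1 i k else 0) = (if k = i then (u : L).1 l j else 0) := by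
      intro k l hkl i j
      have h := congrArg (fun g : L => g.1 i j)
        (congrArg Subtype.val (Subgroup.mem_center_iff.mp huZ ⟨_, tv_mem_Un hkl (1 : K)⟩).symm)
      simpa [mul_tv_entry, tv_mul_entry] using h
    have hu_eq : (u : L) = Matrix.SpecialLinearGroup.transvection how.ne ((u : L).1 o w) := by
      refine sl_ext fun i j => ?_
      rw [tv_entry]
      by_cases hij : i = j
      · subst hij; rw [if_pos rfl, u.2.2, if_neg (fun e => how.ne (e.1.trans e.2.symm)), add_zero]
      · by_cases hc : o = i ∧ w = j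
        · obtain ⟨rfl, rfl⟩ := hc; simp [hij]
        · rw [if_neg hij, if_neg hc, zero_add]
          rcases lt_or_gt_of_ne hij with h | h
          · by_cases hj : j = w
            · subst hj
              have hi : o ≠ i := fun e => hc ⟨e, rfl⟩
              simpa [hij, Ne.symm hij] using (hcomm o i (lt_of_le_of_ne (Nat.zero_le _) hi) o w).symm
            · have hjw : j < w := by
                have := j.2; have := Fin.val_ne_of_ne hj; rw [hw, Fin.lt_def]; simp [hw] at this ⊢; omega
              simpa [hij, Ne.symm hij] using hcomm j w hjw i w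
          · exact u.2.1.out i j h
    have hune' : (u : L).1 o w ≠ 0 := fun h0 => hune (by
      rw [h0, tv_zero] at hu_eq
      exact Subtype.ext (Subtype.ext hu_eq))
    have htv : ∀ (a b : Fin n) (hab : a < b) (t : K), f (Matrix.SpecialLinearGroup.transvection hab.ne t) ∈ T := by
      intro a b hab t
      by_cases ht : t = 0
      · rw [ht, tv_zero, map_one]; exact one_mem _
      obtain ⟨g, hg⟩ := isConj_iff.mp (isConj_tv hn how.ne hab.ne hune' ht)
      have huT : f (u : L) ∈ T := huN
      rw [hu_eq] at huT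
      set y := f (Matrix.SpecialLinearGroup.transvection how.ne ((u : L).1 o w))
      have hle : Subgroup.zpowers y ≤ T := Subgroup.zpowers_le.mpr huT
      have hg' : f g * y * (f g)⁻¹ = f (Matrix.SpecialLinearGroup.transvection hab.ne t) := by
        rw [← hg, map_mul, map_mul, map_inv]
      have hmem : conjHom (Subgroup.zpowers y) (f g) ∈
          (groupFusionSystem (S : Subgroup G)).Hom (Subgroup.zpowers y) := by
        refine ⟨hle.trans hT.1, fun x => ?_, f g, fun x => rfl⟩
        obtain ⟨k, hk⟩ := Subgroup.mem_zpowers_iff.mp x.2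
        show f g * (x : G) * (f g)⁻¹ ∈ (S : Subgroup G)
        rw [← hk, ← conj_zpow, hg']
        exact zpow_mem (hmS _ (tv_mem_Un hab t)) k
      have h := hT.2 _ hle _ hmem ⟨y, Subgroup.mem_zpowers _⟩
      rwa [show conjHom (Subgroup.zpowers y) (f g) ⟨y, Subgroup.mem_zpowers _⟩ = f g * y * (f g)⁻¹ from rfl, hg'] at h
    refine le_antisymm hT.1 ?_
    rw [hS]
    refine (Subgroup.map_mono Un_le_closure).trans ?_
    rw [MonoidHom.map_closure, Subgroup.closure_le]
    rintro _ ⟨_, ⟨a, b, hab, t, rfl⟩, rfl⟩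
    exact htv a b hab t
  · set KK : Set G := f '' ((Un n K : Subgroup L) : Set L) ∪
      {g | ∃ (a b : Fin n) (hab : b.val = a.val + 1) (h : L),
        h ∈ Subgroup.closure {y : L | ∃ t, y = Matrix.SpecialLinearGroup.transvection (show a ≠ b from fun e => by subst e; omega) t ∨
          y = Matrix.SpecialLinearGroup.transvection (show b ≠ a from fun e => by subst e; omega) t} ∧ g = f h} with hKK
    set N := Subgroup.normalizer ((S : Subgroup G) : Set G) with hNdef
    set T := Subgroup.closure {α : MulAut ↥(S : Subgroup G) |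
      ∃ g ∈ KK ∩ (N : Set G), ∀ x, ((α x : ↥(S : Subgroup G)) : G) = g * (x : G) * g⁻¹}
    have hKle : Subgroup.closure (KK ∩ (N : Set G)) ≤ (T.comap (S : Subgroup G).normalizerMonoidHom).map N.subtype := by
      rw [Subgroup.closure_le]
      rintro g ⟨hg, hgN⟩
      exact ⟨⟨g, hgN⟩, Subgroup.subset_closure ⟨g, ⟨hg, hgN⟩, fun _ => rfl⟩, rfl⟩
    refine le_trans ?_ (Subgroup.closure_mono (fun α ⟨g, hg, h⟩ => ⟨g, hg.1, h⟩) :
      T ≤ Subgroup.closure {α : MulAut ↥(S : Subgroup G) | ∃ g ∈ KK, ∀ x, ((α x : ↥(S : Subgroup G)) : G) = g * (x : G) * g⁻¹})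
    rw [autInducedBy_eq_map]
    rintro _ ⟨⟨g, hgN⟩, -, rfl⟩
    have hgcl : g ∈ Subgroup.closure (KK ∩ (N : Set G)) := by
      obtain ⟨x, rfl⟩ := hsurj g
      have hxB := mem_Bo.mp (hnormS x hgN)
      have hd0 : ∀ i, x.1 i i ≠ 0 := fun i h0 => by
        have h := x.2
        rw [Matrix.det_of_upperTriangular (fun i j hji => hxB i j hji)] at h
        exact one_ne_zero (h.symm.trans (Finset.prod_eq_zero (Finset.mem_univ i) h0))
      let d : L := ⟨Matrix.diagonal fun i => x.1 i i, by
        rw [Matrix.det_diagonal, ← Matrix.det_of_upperTriangular (fun i j hji => hxB i j hji)]; exact x.2⟩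
      let dS : Subgroup L := (Subgroup.closure (KK ∩ (N : Set G))).comap f
      have hU : Un n K ≤ dS := fun u hu =>
        Subgroup.subset_closure ⟨Or.inl ⟨u, hu, rfl⟩, Subgroup.le_normalizer (hmS u hu)⟩
      have hdiagU : ∀ h : L, (∀ i j, i ≠ j → h.1 i j = 0) → ∀ u ∈ Un n K, h * u * h⁻¹ ∈ Un n K := by
        intro h hh u hu
        have hh' : ∀ g : L, g ∈ Bo n K → ∀ i, (h * g).1 i i = h.1 i i * g.1 i i := fun g _ i => by
          rw [mul_entry, Finset.sum_eq_single i]
          · intro k _ hk; rw [hh i k hk.symm, zero_mul]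
          · simp
        have hhB : h ∈ Bo n K := fun i j hji => hh i j hji.ne'
        have hB : h * u * h⁻¹ ∈ Bo n K := mul_mem (mul_mem hhB hu.1) (inv_mem hhB)
        refine ⟨hB, fun i => ?_⟩
        have e := congrArg (fun g : L => g.1 i i) (inv_mul_cancel_right (h * u) h)
        simp only [mul_entry (h * u * h⁻¹) h, hh' u hu.1] at e
        rw [Finset.sum_eq_single i] at e
        · rw [hu.2, mul_one] at e
          have hne : h.1 i i ≠ 0 := fun h0 => by
            have hdet := h.2
            rw [Matrix.det_of_upperTriangular (fun i j hji => hh i j (ne_of_gt hji))] at hdet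
            exact one_ne_zero (hdet.symm.trans (Finset.prod_eq_zero (Finset.mem_univ i) h0))
          exact mul_right_cancel₀ hne (by rw [e, one_mul])
        · intro k _ hk; rw [hh k i hk, mul_zero]
        · simp
      have hd : d ∈ dS := by
        refine (Subgroup.closure_le dS).mpr ?_ (diag_mem_closure (T := {h : L | h ∈ dS}) ?_
          (fun i j hij => Matrix.diagonal_apply_ne _ hij))
        · exact fun y hy => hy
        intro a b hab c hc
        have hne : a ≠ b := fun e => by subst e; omega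
        obtain ⟨h, hcl, hoff, h1, h2, h3⟩ := exists_torus (K := K) hne hc
        refine ⟨h, Subgroup.subset_closure ⟨Or.inr ⟨a, b, hab, h, ?_, rfl⟩, ?_⟩, hoff, h1, h2, h3⟩
        · refine Subgroup.closure_mono ?_ hcl
          rintro y (⟨t, rfl⟩ | ⟨t, rfl⟩)
          · exact ⟨t, Or.inl rfl⟩
          · exact ⟨t, Or.inr rfl⟩
        · rw [SetLike.mem_coe, hNdef, mem_normalizer_iff_cj]
          have hle : cj (f h) (S : Subgroup G) ≤ (S : Subgroup G) := by
            rw [cj_le_iff]
            intro s hs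
            obtain ⟨u, hu, rfl⟩ := hS.le hs
            rw [← map_inv, ← map_mul, ← map_mul]
            exact hmS _ (hdiagU h hoff u hu)
          exact Subgroup.eq_of_le_of_card_ge hle (by rw [card_cj])
      have hdx : d⁻¹ * x ∈ Un n K := by
        have hdB : d ∈ Bo n K := fun i j hji => Matrix.diagonal_apply_ne _ hji.ne'
        refine ⟨mul_mem (inv_mem hdB) (hnormS x hgN), fun i => ?_⟩
        have e := congrArg (fun g : L => g.1 i i) (mul_inv_cancel_left d x)
        simp only [mul_entry d] at e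
        rw [Finset.sum_eq_single i] at e
        · exact mul_left_cancel₀ (hd0 i) (by simpa [d] using e)
        · intro k _ hk; simp [d, Ne.symm hk]
        · simp
      have := mul_mem hd (hU hdx)
      rwa [mul_inv_cancel_left] at this
    obtain ⟨w, hw, hwg⟩ := hKle hgcl
    have : w = ⟨g, hgN⟩ := Subtype.ext hwg
    exact this ▸ hw
  · rintro g (⟨u, hu, rfl⟩ | ⟨a, b, hab, h, hh, rfl⟩) -
    · exact Or.inl (Subgroup.mem_sup_left (hmS u hu))
    right
    have hne : a ≠ b := fun e => by subst e; omega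
    have hRS : (Rn (K := K) hab).map f ≤ (S : Subgroup G) := hS ▸ Subgroup.map_mono (Rn_le_Un hab)
    refine ⟨(Rn (K := K) hab).map f, ?_, ?_, ?_⟩
    · refine ⟨hRS, fun Q _ => ?_⟩
      have : normalizerIn (S : Subgroup G) ((Rn (K := K) hab).map f) = (S : Subgroup G) := by
        refine inf_eq_left.mpr fun s hs => ?_
        obtain ⟨u, hu, rfl⟩ := hS.le hs
        rw [mem_normalizer_iff_cj]
        refine Subgroup.eq_of_le_of_card_ge ?_ (by rw [card_cj])
        rw [cj_le_iff]
        rintro _ ⟨v, hv, rfl⟩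
        rw [← map_inv, ← map_mul, ← map_mul]
        exact ⟨_, conj_mem_Rn_of_mem_Un hab hu hv, rfl⟩
      rw [this]
      exact Subgroup.card_le_of_le inf_le_left
    · intro Q hQ y hy
      obtain ⟨-, -, g, rfl⟩ := group_isConj_iff.mp hQ
      obtain ⟨x, rfl⟩ := hsurj g
      obtain ⟨v, hv, hve⟩ := hS.le hy.1
      set c := x⁻¹ * v * x with hc
      have hfc : ∀ r ∈ Rn (K := K) hab, c * r = r * c := by
        intro r hr
        have hr' : f x * f r * (f x)⁻¹ ∈ cj (f x) ((Rn (K := K) hab).map f) := ⟨f r, ⟨r, hr, rfl⟩, rfl⟩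
        have h1 := Subgroup.mem_centralizer_iff.mp hy.2 _ hr'
        have h2 : f (c * r * c⁻¹) = f r := by
          have e : f x * f r * (f x)⁻¹ = f v * (f x * f r * (f x)⁻¹) * (f v)⁻¹ := by
            rw [hve, ← h1]; group
          simp only [hc, map_mul, map_inv]
          calc _ = (f x)⁻¹ * (f v * (f x * f r * (f x)⁻¹) * (f v)⁻¹) * f x := by group
            _ = f r := by rw [← e]; group
        exact mul_inv_eq_iff_eq_mul.mp (eq_conj_of_mem p hker hr.1 hr.1 h2)
      obtain ⟨u, hu, z, hz, hcz⟩ := centralizer_Rn hn hab hfc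
      have hz1 : f z = 1 := by
        obtain ⟨i, hi, hi'⟩ := exists_exponent p ⟨v, hv⟩ ⟨u, hu.1⟩
        have hcp : c ^ p ^ i = 1 := by
          have e : c = x⁻¹ * v * x⁻¹⁻¹ := by rw [hc, inv_inv]
          rw [e, conj_pow, hi]; group
        rw [hcz, Commute.mul_pow (Subgroup.mem_center_iff.mp hz u), hi', one_mul] at hcp
        rw [center_pPower_eq_one p hz hcp, map_one]
      refine ⟨f c, ⟨u, hu, by rw [hcz, map_mul, hz1, mul_one]⟩, ?_⟩
      show f x * f c * (f x)⁻¹ = y
      rw [← hve, hc]; simp [mul_assoc]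
    · have hle : (Subgroup.closure {y : L | ∃ t, y = Matrix.SpecialLinearGroup.transvection hne t ∨
          y = Matrix.SpecialLinearGroup.transvection hne.symm t}).map f ≤
          Subgroup.closure {g : G | g ∈ Subgroup.normalizer (((Rn (K := K) hab).map f : Subgroup G) : Set G) ∧
            ∃ k : ℕ, orderOf g = p ^ k} := by
        rw [MonoidHom.map_closure]
        refine Subgroup.closure_mono ?_
        rintro _ ⟨y, ⟨t, hy⟩, rfl⟩
        have hpow : ∀ (i j : Fin n) (hij : i ≠ j),
            (Matrix.SpecialLinearGroup.transvection hij t : L) ^ p = 1 := by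
          intro i j hij
          have : ∀ m : ℕ, (Matrix.SpecialLinearGroup.transvection hij t : L) ^ m =
              Matrix.SpecialLinearGroup.transvection hij ((m : K) * t) := by
            intro m
            induction m with
            | zero => simp
            | succ m ih => rw [pow_succ, ih, ← Matrix.SpecialLinearGroup.transvection_add]; congr 1; push_cast; ring
          rw [this, CharP.cast_eq_zero, zero_mul, tv_zero]
        have hyp : y ^ p = 1 := by rcases hy with rfl | rfl <;> exact hpow _ _ _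
        have hconj : ∀ v ∈ Rn (K := K) hab, y * v * y⁻¹ ∈ Rn (K := K) hab := by
          rcases hy with rfl | rfl
          · exact fun v hv => conj_mem_Rn_of_mem_Un hab (tv_mem_Un (by rw [Fin.lt_def]; omega) t) hv
          · exact fun v hv => conj_mem_Rn_opp hab hne.symm t hv
        refine ⟨?_, ?_⟩
        · rw [mem_normalizer_iff_cj]
          refine Subgroup.eq_of_le_of_card_ge ?_ (by rw [card_cj])
          rw [cj_le_iff]
          rintro _ ⟨v, hv, rfl⟩
          rw [← map_inv, ← map_mul, ← map_mul]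
          exact ⟨_, hconj v hv, rfl⟩
        · obtain ⟨k, -, hk⟩ := (Nat.dvd_prime_pow (Fact.out : p.Prime)).mp
            (show orderOf (f y) ∣ p ^ 1 by rw [pow_one, orderOf_dvd_iff_pow_eq_one, ← map_pow, hyp, map_one])
          exact ⟨k, hk⟩
      exact hle ⟨h, hh, rfl⟩

end CfsgLib.Fusion
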