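import Cfsg.Agent.Lib.Fusion.Saturated

/-! Saturation from the Sylow condition on `S` and receptivity. (helper6) -/

set_option autoImplicit false
set_option linter.unusedSectionVars false
set_option linter.style.haveILetI false

namespace CfsgLib.Fusion

open Cfsg Cfsg.FusionSystem

variable {Ω : Type*} [Group Ω] {S : Subgroup Ω} [Finite ↥S] {F : FusionSystem S} {p : ℕ} [Fact p.Prime]

/-- In a system where `Aut_S(S)` is Sylow and fully normalized subgroups are receptive, they are fully automized. -/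
theorem automized_of_receptive (hS : IsPGroup p ↥S) (hA : F.IsFullyAutomized p S)
    (hrec : ∀ P : Subgroup Ω, F.IsFullyNormalized P → F.IsReceptive P) :
    ∀ P : Subgroup Ω, F.IsFullyNormalized P → F.IsFullyAutomized p P := by
  suffices h : ∀ (d : ℕ) (P : Subgroup Ω), Nat.card ↥S - Nat.card ↥P = d → F.IsFullyNormalized P →
      F.IsFullyAutomized p P from fun P hP => h _ P rfl hP
  intro d
  induction d using Nat.strong_induction_on with
  | _ d ih =>
  intro P hd hP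
  rcases eq_or_lt_of_le hP.1 with rfl | hlt
  · exact hA
  haveI := finite_of_le hP.1
  haveI := finite_aut_of_le hP.1
  set A := F.autGroup P
  set B : Subgroup ↥A := (autInducedBy S P).subgroupOf A
  have hleA : autInducedBy S P ≤ A := autInducedBy_le_autGroup F hP.1
  have hBp : IsPGroup p ↥B := by
    refine IsPGroup.comap_subtype ?_
    rw [autInducedBy_eq_map]
    exact ((hS.to_le inf_le_left).comap_subtype).map _
  obtain ⟨T, hT⟩ := hBp.exists_le_sylow
  by_cases hBT : (T : Subgroup ↥A) = B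
  · exact ⟨hP.1, T, hBT⟩
  exfalso
  haveI : Group.IsNilpotent ↥(T : Subgroup ↥A) := IsPGroup.isNilpotent T.2
  have hBlt : B.subgroupOf (T : Subgroup ↥A) < ⊤ := lt_top_iff_ne_top.mpr fun h =>
    hBT (le_antisymm (Subgroup.subgroupOf_eq_top.mp h) hT)
  obtain ⟨a, haN, haB⟩ := SetLike.exists_of_lt (Group.normalizerCondition_of_isNilpotent _ hBlt)
  set α : MulAut ↥P := ((a : ↥A) : MulAut ↥P)
  set φ : ↥P →* Ω := P.subtype.comp α.toMonoidHom
  have hφ : φ ∈ F.Hom P := (autGroup_carrier F hP.1 α).mp (a : ↥A).2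
  have hr : φ.range = P := by
    ext y
    exact ⟨fun ⟨x, hx⟩ => hx ▸ (α x).2, fun hy => ⟨α.symm ⟨y, hy⟩, congrArg Subtype.val (α.apply_symm_apply ⟨y, hy⟩)⟩⟩
  set N := normalizerIn S P
  haveI : Finite ↥N := finite_of_le inf_le_left
  have hNS : N ≤ S := inf_le_left
  have hPN : P ≤ N := le_inf hP.1 Subgroup.le_normalizer
  have hNe : N ≤ extender S P φ := by
    intro n hn
    have hb : (⟨_, hleA ((mem_autInducedBy _).mpr ⟨n, hn.1, fun x => rfl⟩ :
        P.normalizerMonoidHom ⟨n, hn.2⟩ ∈ autInducedBy S P)⟩ : ↥A) ∈ B :=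
      Subgroup.mem_subgroupOf.mpr ((mem_autInducedBy _).mpr ⟨n, hn.1, fun x => rfl⟩)
    have h1 := (Subgroup.mem_normalizer_iff.mp haN ⟨_, hT hb⟩).mp (Subgroup.mem_subgroupOf.mpr hb)
    obtain ⟨h, hh, hhe⟩ := (mem_autInducedBy _).mp (Subgroup.mem_subgroupOf.mp (Subgroup.mem_subgroupOf.mp h1))
    refine mem_extender hn hh fun x hx => ?_
    refine Eq.trans ?_ (hhe (α x))
    show (α ⟨n * x * n⁻¹, hx⟩ : Ω) = ((α (P.normalizerMonoidHom ⟨n, hn.2⟩ (α⁻¹ (α x))) : ↥P) : Ω)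
    rw [MulAut.inv_apply_self]
    exact congrArg (fun y : ↥P => ((α y : ↥P) : Ω)) (Subtype.ext rfl)
  obtain ⟨ψ₀, hψ₀, hψ₀e⟩ := (hrec P hP).2 P φ hφ hr
  have hψ : ψ₀.comp (Subgroup.inclusion hNe) ∈ F.Hom N := restrict_mem hψ₀ hNe
  have hψP : ∀ x : ↥P, ψ₀.comp (Subgroup.inclusion hNe) (Subgroup.inclusion hPN x) = ((α x : ↥P) : Ω) :=
    fun x => hψ₀e x x.2 _
  have hψN : (ψ₀.comp (Subgroup.inclusion hNe)).range = N := by
    refine Subgroup.eq_of_le_of_card_ge ?_ (by rw [card_range hψ])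
    rintro _ ⟨n, rfl⟩
    refine ⟨apply_mem_S hψ n, mem_normalizer_iff_cj.mpr ?_⟩
    refine Subgroup.eq_of_le_of_card_ge (cj_le_iff.mpr fun y hy => ?_) (by rw [card_cj])
    obtain ⟨x, hx⟩ := α.surjective ⟨y, hy⟩
    rw [show y = ψ₀.comp (Subgroup.inclusion hNe) (Subgroup.inclusion hPN x) from
      ((hψP x).trans (congrArg Subtype.val hx)).symm, ← map_inv, ← map_mul, ← map_mul]
    rw [show n * Subgroup.inclusion hPN x * n⁻¹ =
      Subgroup.inclusion hPN ⟨_, conj_mem_of_normalizer n.2.2 x.2⟩ from Subtype.ext rfl, hψP]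
    exact SetLike.coe_mem _
  haveI := finite_aut_of_le (S := S) hNS
  set β : MulAut ↥N := isoOfMem hψ hψN
  have hβF : β ∈ F.autGroup N := (autGroup_carrier F hNS β).mpr (by
    rw [show β.toMonoidHom = _ from rfl, isoOfMem_hom hψ hψN]; exact hψ)
  have hβP : ∀ (k : ℕ) (x : ↥P), (((β ^ k) (Subgroup.inclusion hPN x) : ↥N) : Ω) = (((α ^ k) x : ↥P) : Ω) := by
    intro k
    induction k with
    | zero => intro x; rfl
    | succ k ihk =>
      intro x
      rw [pow_succ', pow_succ', MulAut.mul_apply, MulAut.mul_apply,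
        show (β ^ k) (Subgroup.inclusion hPN x) = Subgroup.inclusion hPN ((α ^ k) x) from Subtype.ext (ihk x)]
      exact (isoOfMem_coe hψ hψN _).trans (hψP _)
  obtain ⟨k, m, hm, hkm⟩ := Nat.exists_eq_pow_mul_and_not_dvd (orderOf_pos β).ne' p (Fact.out : p.Prime).ne_one
  have hαm : α ^ m ∉ autInducedBy S P := fun hc => haB (by
    obtain ⟨j, hj⟩ := IsPGroup.iff_orderOf.mp T.2 a
    obtain ⟨i, hi⟩ := exists_pow_eq_self_of_coprime (n := m) (x := a)
      (hj ▸ ((Nat.Prime.coprime_iff_not_dvd Fact.out).mpr hm).symm.pow_right j)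
    rw [← hi]
    refine pow_mem (Subgroup.mem_subgroupOf.mpr (Subgroup.mem_subgroupOf.mpr ?_)) i
    show ((((a ^ m : ↥(T : Subgroup ↥A)) : ↥A)) : MulAut ↥P) ∈ autInducedBy S P
    rw [Subgroup.coe_pow, Subgroup.coe_pow]
    exact hc)
  have hβp : ∃ e, orderOf (β ^ m) = p ^ e := ⟨k, by
    have hm0 : 0 < m := Nat.pos_of_ne_zero fun h => hm (h ▸ dvd_zero p)
    rw [orderOf_pow' β hm0.ne', hkm, Nat.gcd_eq_right (Dvd.intro_left _ rfl), Nat.mul_div_cancel _ hm0]⟩
  have hPltN : P < N := lt_normalizerIn p hS hlt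
  obtain ⟨N', hNN', hN'⟩ := exists_fullyNormalized F hNS
  obtain ⟨θ, hθ, hθr⟩ := id hNN'
  have hcardN : Nat.card ↥N' = Nat.card ↥N := (IsConj.card_eq hNN').symm
  obtain ⟨-, T', hT'⟩ := ih (Nat.card ↥S - Nat.card ↥N') (by
    have h1 : Nat.card ↥P < Nat.card ↥N := Set.Finite.card_lt_card (Set.toFinite _) hPltN
    have h2 := Subgroup.card_le_of_le (IsConj.le_right hNN')
    omega) N' rfl hN'
  set e := isoOfMem hθ hθr
  have he : N'.subtype.comp e.toMonoidHom ∈ F.Hom N := by rwa [isoOfMem_hom hθ hθr]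
  have hb : MulAut.congr e (β ^ m) ∈ F.autGroup N' := by
    refine (autGroup_carrier F hN'.1 _).mpr ?_
    exact trans_mem e.symm ((β ^ m).trans e) (symm_mem e he)
      (trans_mem (β ^ m) e ((autGroup_carrier F hNS _).mp (pow_mem hβF m)) he)
  haveI := finite_aut_of_le hN'.1
  obtain ⟨e', he'⟩ := hβp
  have hbp : IsPGroup p ↥(Subgroup.zpowers (⟨_, hb⟩ : ↥(F.autGroup N'))) :=
    IsPGroup.of_card (n := e') (by
      rw [Nat.card_zpowers, Subgroup.orderOf_mk, MulEquiv.orderOf_eq]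
      exact he')
  obtain ⟨T'', hT''⟩ := hbp.exists_le_sylow
  obtain ⟨η, hη⟩ := MulAction.exists_smul_eq ↥(F.autGroup N') T'' T'
  have h2 : MulAut.conj η • (⟨_, hb⟩ : ↥(F.autGroup N')) ∈ η • T'' :=
    Subgroup.smul_mem_pointwise_smul _ _ _ (hT'' (Subgroup.mem_zpowers _))
  rw [hη] at h2
  obtain ⟨s, hs, hse⟩ := (mem_autInducedBy _).mp (hT'.le h2)
  set ε := e.trans (η : MulAut ↥N')
  have hε : N'.subtype.comp ε.toMonoidHom ∈ F.Hom N :=
    trans_mem e (η : MulAut ↥N') he ((autGroup_carrier F hN'.1 _).mp η.2)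
  have hsx : ∀ x : ↥N, ((ε ((β ^ m) x) : ↥N') : Ω) = s * (ε x : Ω) * s⁻¹ := fun x => by
    refine Eq.trans ?_ (hse (ε x))
    show _ = (((η : MulAut ↥N') (e ((β ^ m) (e.symm ((η : MulAut ↥N')⁻¹ (ε x))))) : ↥N') : Ω)
    rw [show (η : MulAut ↥N')⁻¹ (ε x) = e x from MulAut.inv_apply_self _ _ _, e.symm_apply_apply]
    rfl
  set P' := ((N'.subtype.comp ε.toMonoidHom).comp (Subgroup.inclusion hPN)).range with hP'def
  have hPP' : F.IsConj P P' := ⟨_, restrict_mem hε hPN, rfl⟩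
  haveI : Finite ↥P' := finite_of_le (IsConj.le_right hPP')
  have hnorm : ∀ g : Ω, (∀ x : ↥P, g * (ε (Subgroup.inclusion hPN x) : Ω) * g⁻¹ ∈ P') →
      g ∈ Subgroup.normalizer (P' : Set Ω) := fun g hg =>
    mem_normalizer_iff_cj.mpr (Subgroup.eq_of_le_of_card_ge
      (cj_le_iff.mpr (by rintro _ ⟨x, rfl⟩; exact hg x)) (by rw [card_cj]))
  have hN'P : N' ≤ normalizerIn S P' := fun g hg => ⟨hN'.1 hg, hnorm g fun x => by
    obtain ⟨n, hn⟩ := ε.surjective ⟨g, hg⟩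
    refine ⟨⟨_, conj_mem_of_normalizer n.2.2 x.2⟩, ?_⟩
    show ((ε (Subgroup.inclusion hPN ⟨_, _⟩) : ↥N') : Ω) = _
    rw [show Subgroup.inclusion hPN ⟨(n : Ω) * (x : Ω) * (n : Ω)⁻¹, conj_mem_of_normalizer n.2.2 x.2⟩ =
      n * Subgroup.inclusion hPN x * n⁻¹ from Subtype.ext rfl, map_mul, map_mul, map_inv, hn]
    rfl⟩
  haveI : Finite ↥(normalizerIn S P') := finite_of_le inf_le_left
  have hsP : s ∈ normalizerIn S P' := ⟨hs, hnorm s fun x => by
    refine ⟨(α ^ m) x, ?_⟩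
    show ((ε (Subgroup.inclusion hPN ((α ^ m) x)) : ↥N') : Ω) = _
    rw [show Subgroup.inclusion hPN ((α ^ m) x) = (β ^ m) (Subgroup.inclusion hPN x) from Subtype.ext (hβP m x).symm, hsx]⟩
  have hsN : s ∈ N' := (Subgroup.eq_of_le_of_card_ge hN'P ((hP.2 P' hPP').trans hcardN.ge)).ge hsP
  obtain ⟨n, hn⟩ := ε.surjective ⟨s, hsN⟩
  refine hαm ((mem_autInducedBy _).mpr ⟨n, n.2.1, fun x => ?_⟩)
  rw [← hβP m x]
  have h3 : (β ^ m) (Subgroup.inclusion hPN x) = n * Subgroup.inclusion hPN x * n⁻¹ := by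
    refine ε.injective (Subtype.ext ?_)
    rw [hsx, map_mul, map_mul, map_inv, hn]
    rfl
  rw [h3]
  rfl

/-- The criterion of saturation. -/
theorem saturated_iff_receptive (hS : IsPGroup p ↥S) :
    F.IsSaturated p ↔ F.IsFullyAutomized p S ∧ ∀ P : Subgroup Ω, F.IsFullyNormalized P → F.IsReceptive P := by
  refine ⟨fun hF => ⟨fullyNormalized_automized p hS hF (fullyNormalized_S F), fun P hP => fullyNormalized_receptive p hS hF hP⟩,
    fun ⟨hA, hrec⟩ P hP => ?_⟩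
  obtain ⟨Q, hPQ, hQ⟩ := exists_fullyNormalized F hP
  exact ⟨Q, hPQ, automized_of_receptive hS hA hrec Q hQ, hrec Q hQ⟩

end CfsgLib.Fusion
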